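import Cfsg.Agent.Lib.TF4.Order
import Cfsg.Agent.Lib.TF4.Card
import Cfsg.Agent.Lib.AltSec.Fusion
import Cfsg.Agent.Lib.Twisted.AutCount

/-!
# The elements of order seven in the torus of `²F₄(q)` are not conjugate to their squares
-/

set_option autoImplicit false
set_option linter.unusedSectionVars false
set_option linter.unusedVariables false
set_option linter.unusedSimpArgs false
set_option maxRecDepth 100000

namespace Cfsg.Agent.Lib.TF4.ASec

open Cfsg.Lie Cfsg.Agent.Lib.Twisted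
open Cfsg.Agent.Lib.Chevalley.Tbl.F4 (sys comm)
open Cfsg.Agent.Lib.ChevBN.Elem Cfsg.Agent.Lib.ChevBN.Table Cfsg.Agent.Lib.ChevBN.Rel
open Cfsg.Agent.Lib.ChevBN.Opp Cfsg.Agent.Lib.ChevBN.Torus Cfsg.Agent.Lib.ChevBN.Monomial
open Cfsg.Agent.Lib.ChevBN.Stmts Cfsg.Agent.Lib.ChevBN.Pair
open Cfsg.Agent.Lib.ChevBN.FastData (tbl_chevF4)

universe u

variable {K : Type u} [Field K] [CharP K 2]

set_option quotPrecheck false in
/-- The torus elements. -/
local notation "hGr" => hG (sys (F := _)).toAddRel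

/-- The diagonal entries of the torus elements. -/
noncomputable def coefT (φ : K →+* K) (a b : K) (s : ℕ) : K :=
  (φ a) ^ (chevF4.cartan 0 s) * a ^ (chevF4.cartan 3 s) * ((φ b) ^ (chevF4.cartan 1 s) * b ^ (chevF4.cartan 2 s))

theorem coe_hGr (i : ℕ) (hi : i < chevF4.rank) {c : K} (hc : c ≠ 0) :
    ((hGr (chevF4.simple i) c : GL chevF4.Idx K) : Matrix chevF4.Idx chevF4.Idx K) =
      Matrix.diagonal (Sum.elim (fun _ => (1 : K)) (fun s : Fin chevF4.nroots => c ^ (chevF4.cartan i s))) := by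
  rw [coe_hG]
  exact (sys (F := K)).hdiag i hi c hc

/-- The matrix of a torus element. -/
theorem coe_pair (φ : K →+* K) {a b : K} (ha : a ≠ 0) (hb : b ≠ 0) :
    ((hh φ 0 a * hh φ 1 b : GL chevF4.Idx K) : Matrix chevF4.Idx chevF4.Idx K) =
      Matrix.diagonal (Sum.elim (fun _ => (1 : K)) (fun s : Fin chevF4.nroots => coefT φ a b s)) := by
  have h33 := coe_hGr (K := K) 0 (by decide +kernel) (φ_ne (φ := φ) ha)
  have h24 := coe_hGr (K := K) 3 (by decide +kernel) ha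
  have h27 := coe_hGr (K := K) 1 (by decide +kernel) (φ_ne (φ := φ) hb)
  have h25 := coe_hGr (K := K) 2 (by decide +kernel) hb
  rw [simple_eq.1] at h33
  rw [simple_eq.2.2.2] at h24
  rw [simple_eq.2.1] at h27
  rw [simple_eq.2.2.1] at h25
  show ((hGr 33 (φ a) * hGr 24 a * (hGr 27 (φ b) * hGr 25 b) : GL chevF4.Idx K) : Matrix chevF4.Idx chevF4.Idx K) = _
  simp only [Units.val_mul, h33, h24, h27, h25, Matrix.diagonal_mul_diagonal]
  congr 1
  funext x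
  rcases x with x | x
  · simp
  · simp [coefT]

/-- The trace of a diagonal matrix and of its square. -/
theorem trace_sq (d : chevF4.Idx → K) :
    Matrix.trace (Matrix.diagonal d * Matrix.diagonal d) = (Matrix.trace (Matrix.diagonal d)) ^ 2 := by
  have : Fact (Nat.Prime 2) := ⟨Nat.prime_two⟩
  rw [Matrix.diagonal_mul_diagonal, Matrix.trace_diagonal, Matrix.trace_diagonal, sum_pow_char]
  simp only [sq]

theorem trace_pair (φ : K →+* K) {a b : K} (ha : a ≠ 0) (hb : b ≠ 0) :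
    Matrix.trace ((hh φ 0 a * hh φ 1 b : GL chevF4.Idx K) : Matrix chevF4.Idx chevF4.Idx K) =
      ∑ s ∈ Finset.range 48, coefT φ a b s := by
  rw [coe_pair φ ha hb, Matrix.trace_diagonal, Fintype.sum_sum_type]
  have h2 : (2 : K) = 0 := CharTwo.two_eq_zero
  have e1 : ∑ x : Fin chevF4.rank, Sum.elim (fun _ => (1 : K)) (fun s : Fin chevF4.nroots => coefT φ a b s) (Sum.inl x) = 0 := by
    simp only [Sum.elim_inl, Finset.sum_const, Finset.card_univ, Fintype.card_fin, rank_eq, nsmul_eq_mul, mul_one]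
    push_cast
    linear_combination 2 * h2
  rw [e1, zero_add, ← nroots_eq]
  exact Fin.sum_univ_eq_sum_range (fun s => coefT φ a b s) chevF4.nroots

/-! ### Computing in the field with eight elements -/

/-- The additive group of the field with eight elements. -/
abbrev V8 := ZMod 2 × ZMod 2 × ZMod 2

/-- The powers of the generator. -/
def pw7 : ℕ → V8
  | 0 => (1, 0, 0)
  | 1 => (0, 1, 0)
  | 2 => (0, 0, 1)
  | 3 => (1, 1, 0)
  | 4 => (0, 1, 1)
  | 5 => (1, 1, 1)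
  | _ => (1, 0, 1)

/-- The exponent of a root at a given element of order seven. -/
def expo (i j s : ℕ) : ℕ :=
  (((2 * chevF4.cartan 0 s + chevF4.cartan 3 s) * (i : ℤ) + (2 * chevF4.cartan 1 s + chevF4.cartan 2 s) * (j : ℤ)) % 7).toNat

/-- The trace. -/
def cc (i j : ℕ) : ℕ → V8
  | 0 => 0
  | n + 1 => cc i j n + pw7 (expo i j n)

/-- The values of the trace. -/
def okV (v : V8) : Bool := decide (v = (0, 1, 0)) || decide (v = (0, 0, 1)) || decide (v = (0, 1, 1))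

theorem cc_chk : ∀ i < 7, ∀ j < 7, (i == 0 && j == 0) = false → okV (cc i j 48) = true := by
  decide +kernel

section ev

/-- The evaluation. -/
noncomputable def ev (ζ : K) (v : V8) : K :=
  ZMod.castHom (dvd_refl 2) K v.1 + ZMod.castHom (dvd_refl 2) K v.2.1 * ζ + ZMod.castHom (dvd_refl 2) K v.2.2 * ζ ^ 2

theorem ev_add (ζ : K) (v w : V8) : ev ζ (v + w) = ev ζ v + ev ζ w := by
  simp only [ev, Prod.fst_add, Prod.snd_add, map_add]
  ring

theorem ev_zero (ζ : K) : ev ζ 0 = 0 := by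
  simp [ev]

theorem ev_pw {ζ : K} (hζ : ζ ^ 3 = ζ + 1) {e : ℕ} (he : e < 7) : ζ ^ e = ev ζ (pw7 e) := by
  have h2 : (2 : K) = 0 := CharTwo.two_eq_zero
  interval_cases e
  · simp [ev, pw7]
  · simp [ev, pw7]
  · simp [ev, pw7]
  · simp only [ev, pw7, map_one, map_zero, hζ]
    ring
  · simp only [ev, pw7, map_one, map_zero]
    linear_combination ζ * hζ
  · simp only [ev, pw7, map_one, map_zero]
    linear_combination (ζ ^ 2 + 1) * hζ
  · simp only [ev, pw7, map_one, map_zero]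
    linear_combination (ζ ^ 3 + ζ + 1) * hζ + ζ * h2

theorem term_eq {ζ : K} (h0 : ζ ≠ 0) (h7 : ζ ^ 7 = 1) (i j : ℕ) (c0 c1 c2 c3 : ℤ) :
    ((ζ ^ i) ^ 2) ^ c0 * (ζ ^ i) ^ c3 * (((ζ ^ j) ^ 2) ^ c1 * (ζ ^ j) ^ c2) =
      ζ ^ (((2 * c0 + c3) * (i : ℤ) + (2 * c1 + c2) * (j : ℤ)) % 7).toNat := by
  have h7' : ζ ^ (7 : ℤ) = 1 := by
    rw [zpow_ofNat]
    exact h7
  have hmod : ∀ m : ℤ, ζ ^ m = ζ ^ (m % 7) := by
    intro m
    have e2 : m = m % 7 + 7 * (m / 7) := (Int.emod_add_mul_ediv m 7).symm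
    conv_lhs => rw [e2]
    rw [zpow_add₀ h0, zpow_mul, h7', one_zpow, mul_one]
  have e1 : ((((2 * c0 + c3) * (i : ℤ) + (2 * c1 + c2) * (j : ℤ)) % 7).toNat : ℤ) = ((2 * c0 + c3) * (i : ℤ) + (2 * c1 + c2) * (j : ℤ)) % 7 :=
    Int.toNat_of_nonneg (Int.emod_nonneg _ (by norm_num))
  rw [← zpow_natCast ζ (((2 * c0 + c3) * (i : ℤ) + (2 * c1 + c2) * (j : ℤ)) % 7).toNat, e1, ← hmod]
  simp only [← zpow_natCast, ← zpow_mul]
  rw [← zpow_add₀ h0, ← zpow_add₀ h0, ← zpow_add₀ h0]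
  congr 1
  push_cast
  ring

theorem sum_eq_ev {φ : K →+* K} {ζ : K} (h0 : ζ ≠ 0) (hζ : ζ ^ 3 = ζ + 1) (h7 : ζ ^ 7 = 1) (i j : ℕ)
    (hφa : φ (ζ ^ i) = (ζ ^ i) ^ 2) (hφb : φ (ζ ^ j) = (ζ ^ j) ^ 2) (n : ℕ) :
    ∑ s ∈ Finset.range n, coefT φ (ζ ^ i) (ζ ^ j) s = ev ζ (cc i j n) := by
  induction n with
  | zero => simp [cc, ev_zero]
  | succ n ih =>
    rw [Finset.sum_range_succ, ih]
    show _ = ev ζ (cc i j n + pw7 (expo i j n))
    rw [ev_add]
    congr 1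
    rw [← ev_pw hζ]
    · unfold coefT
      rw [hφa, hφb]
      exact term_eq h0 h7 i j _ _ _ _
    · unfold expo
      have h1 : (((2 * chevF4.cartan 0 n + chevF4.cartan 3 n) * (i : ℤ) + (2 * chevF4.cartan 1 n + chevF4.cartan 2 n) * (j : ℤ)) % 7) < 7 :=
        Int.emod_lt_of_pos _ (by norm_num)
      have h2 : 0 ≤ (((2 * chevF4.cartan 0 n + chevF4.cartan 3 n) * (i : ℤ) + (2 * chevF4.cartan 1 n + chevF4.cartan 2 n) * (j : ℤ)) % 7) :=
        Int.emod_nonneg _ (by norm_num)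
      omega

/-- A root of `X³ = X + 1` together with the group of seventh roots of unity. -/
theorem exists_zeta {g : K} (h1 : g ≠ 1) (h7 : g ^ 7 = 1) : ∃ ζ : K, ζ ≠ 0 ∧ ζ ^ 3 = ζ + 1 := by
  have h2 : (2 : K) = 0 := CharTwo.two_eq_zero
  have hg0 : g ≠ 0 := by
    rintro rfl
    simp at h7
  have e1 : (g - 1) * ((g ^ 3 + g + 1) * (g ^ 3 + g ^ 2 + 1)) = 0 := by
    linear_combination h7 + (g ^ 4 - g ^ 3) * h2
  rcases mul_eq_zero.1 e1 with h | h
  · exact absurd (sub_eq_zero.1 h) h1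
  rcases mul_eq_zero.1 h with h | h
  · refine ⟨g, hg0, ?_⟩
    linear_combination h - (g + 1) * h2
  · refine ⟨g⁻¹, inv_ne_zero hg0, ?_⟩
    field_simp
    linear_combination -h + h2

/-- The trace of a nontrivial element of order seven is not in the prime field. -/
theorem trace_ne {φ : K →+* K} {a b : K} (ha : a ^ 7 = 1) (hb : b ^ 7 = 1) (hne : a ≠ 1 ∨ b ≠ 1)
    (hφa : φ a = a ^ 2) (hφb : φ b = b ^ 2) :
    (∑ s ∈ Finset.range 48, coefT φ a b s) ^ 2 ≠ ∑ s ∈ Finset.range 48, coefT φ a b s := by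
  have h2 : (2 : K) = 0 := CharTwo.two_eq_zero
  obtain ⟨ζ, h0, hζ⟩ : ∃ ζ : K, ζ ≠ 0 ∧ ζ ^ 3 = ζ + 1 := by
    rcases hne with h | h
    · exact exists_zeta h ha
    · exact exists_zeta h hb
  have h7 : ζ ^ 7 = 1 := by
    linear_combination (ζ ^ 4 + ζ ^ 2 + ζ + 1) * hζ + (ζ ^ 2 + ζ) * h2
  have h1 : ζ ≠ 1 := by
    intro h
    rw [h] at hζ
    have : (1 : K) = 0 := by linear_combination hζ + h2
    exact one_ne_zero this
  have : Fact (Nat.Prime 7) := ⟨by norm_num⟩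
  have hord : orderOf ζ = 7 := orderOf_eq_prime h7 h1
  have hprim : IsPrimitiveRoot ζ 7 := by
    rw [← hord]
    exact IsPrimitiveRoot.orderOf ζ
  have : NeZero 7 := ⟨by norm_num⟩
  obtain ⟨i, hi, rfl⟩ := hprim.eq_pow_of_pow_eq_one ha
  obtain ⟨j, hj, rfl⟩ := hprim.eq_pow_of_pow_eq_one hb
  rw [sum_eq_ev h0 hζ h7 i j hφa hφb 48]
  have hij : (i == 0 && j == 0) = false := by
    rcases hne with h | h
    · have : i ≠ 0 := by
        rintro rfl
        exact h (pow_zero _)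
      simp [this]
    · have : j ≠ 0 := by
        rintro rfl
        exact h (pow_zero _)
      simp [this]
  have hok := cc_chk i hi j hj hij
  have hc : cc i j 48 = (0, 1, 0) ∨ cc i j 48 = (0, 0, 1) ∨ cc i j 48 = (0, 1, 1) := by
    unfold okV at hok
    simpa [or_assoc] using hok
  have hζ1 : ζ ^ 2 ≠ 0 := pow_ne_zero 2 h0
  rcases hc with hc | hc | hc <;> rw [hc] <;> simp only [ev, map_one, map_zero, zero_add, zero_mul, add_zero, one_mul]
  · intro h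
    apply h1
    have : ζ * (ζ - 1) = 0 := by linear_combination h
    rcases mul_eq_zero.1 this with h3 | h3
    · exact absurd h3 h0
    · exact sub_eq_zero.1 h3
  · intro h
    have : ζ = 0 := by
      linear_combination h - ζ * hζ
    exact h0 this
  · intro h
    have : ζ ^ 2 = 0 := by
      linear_combination h - ζ * hζ - ζ ^ 3 * h2
    exact hζ1 this

end ev

/-- A `p`-subgroup is conjugate into a subgroup of index prime to `p`. -/
theorem conj_into {G : Type*} [Group G] [Finite G] (p : ℕ) [hp : Fact p.Prime] (A W : Subgroup G) (hidx : ¬ p ∣ A.index)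
    (hW : IsPGroup p W) : ∃ g : G, ∀ w ∈ W, g⁻¹ * w * g ∈ A := by
  have h1 := hW.card_modEq_card_fixedPoints (G ⧸ A)
  have h2 : Nat.card (G ⧸ A) = A.index := rfl
  rw [h2] at h1
  have h3 : Nat.card (MulAction.fixedPoints W (G ⧸ A)) ≠ 0 := by
    intro h
    rw [h] at h1
    exact hidx (Nat.dvd_of_mod_eq_zero (by simpa [Nat.ModEq] using h1))
  have h4 : Nonempty (MulAction.fixedPoints W (G ⧸ A)) := by
    by_contra hc
    rw [not_nonempty_iff] at hc
    exact h3 (Nat.card_of_isEmpty)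
  obtain ⟨⟨q, hq⟩⟩ := h4
  obtain ⟨g, rfl⟩ := QuotientGroup.mk_surjective q
  refine ⟨g, fun w hw => ?_⟩
  have h5 : ((⟨w, hw⟩ : W) • (g : G ⧸ A)) = g := hq ⟨w, hw⟩
  have h6 : ((w * g : G) : G ⧸ A) = g := h5
  rw [QuotientGroup.eq] at h6
  have h7 : (g⁻¹ * w * g) = ((w * g)⁻¹ * g)⁻¹ := by group
  rw [h7]
  exact Subgroup.inv_mem _ h6

theorem pow2_mod7 (n : ℕ) : 2 ^ n % 7 = 1 ∨ 2 ^ n % 7 = 2 ∨ 2 ^ n % 7 = 4 := by
  induction n with
  | zero => simp
  | succ n ih =>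
    rw [pow_succ]
    omega

section main
variable {φ : K →+* K} (hφ2 : ∀ t, (φ (φ t)) ^ 2 = t) {T : Tw (sys (F := K)).toAddRel} (hρ : T.ρ = ρ0)
  (hτ : ∀ r t, T.τ r t = lam r (φ t)) {e : ℕ} (hφ : ∀ t, φ t = t ^ e) [Finite K]

omit [CharP K 2] [Finite K] in
theorem hh_one (j : Fin 2) : hh φ j (1 : K) = 1 := by
  unfold hh
  rw [map_one, hG_one, hG_one, mul_one]

omit [Finite K] [CharP K 2] in
theorem pair_pow [CharP K 2] {a b : K} (ha : a ≠ 0) (hb : b ≠ 0) (n : ℕ) :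
    (hh φ 0 a * hh φ 1 b) ^ n = hh φ 0 (a ^ n) * hh φ 1 (b ^ n) := by
  induction n with
  | zero => simp [hh_one]
  | succ n ih =>
    rw [pow_succ, ih, pow_succ, pow_succ]
    have hcomm : hh φ 1 (b ^ n) * hh φ 0 a = hh φ 0 a * hh φ 1 (b ^ n) :=
      H_comm' (hh_H 1 (pow_ne_zero n hb)) (hh_H 0 ha)
    have e1 : hh φ 0 (a ^ n) * hh φ 1 (b ^ n) * (hh φ 0 a * hh φ 1 b) =
        (hh φ 0 (a ^ n) * hh φ 0 a) * (hh φ 1 (b ^ n) * hh φ 1 b) := by
      calc _ = hh φ 0 (a ^ n) * (hh φ 1 (b ^ n) * hh φ 0 a) * hh φ 1 b := by group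
        _ = _ := by rw [hcomm]; group
    rw [e1, hh_mul 0 (pow_ne_zero n ha) ha, hh_mul 1 (pow_ne_zero n hb) hb]

omit [Finite K] in
/-- No fusion. -/
theorem no_fusion_torus {a b : K} (ha0 : a ≠ 0) (hb0 : b ≠ 0) (ha : a ^ 7 = 1) (hb : b ^ 7 = 1) (hne : a ≠ 1 ∨ b ≠ 1)
    (hφa : φ a = a ^ 2) (hφb : φ b = b ^ 2) (x : GL chevF4.Idx K)
    (hx : x * (hh φ 0 a * hh φ 1 b) * x⁻¹ = (hh φ 0 a * hh φ 1 b) ^ 2) : False := by
  apply trace_ne (φ := φ) ha hb hne hφa hφb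
  rw [← trace_pair φ ha0 hb0]
  have e1 : Matrix.trace ((x * (hh φ 0 a * hh φ 1 b) * x⁻¹ : GL chevF4.Idx K) : Matrix chevF4.Idx chevF4.Idx K) =
      Matrix.trace ((hh φ 0 a * hh φ 1 b : GL chevF4.Idx K) : Matrix chevF4.Idx chevF4.Idx K) := by
    rw [Units.val_mul, Units.val_mul]
    exact Matrix.trace_units_conj x _
  rw [hx, sq, Units.val_mul] at e1
  have e2 : Matrix.trace (((hh φ 0 a * hh φ 1 b : GL chevF4.Idx K) : Matrix chevF4.Idx chevF4.Idx K) * ((hh φ 0 a * hh φ 1 b : GL chevF4.Idx K) : Matrix chevF4.Idx chevF4.Idx K)) =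
      (Matrix.trace ((hh φ 0 a * hh φ 1 b : GL chevF4.Idx K) : Matrix chevF4.Idx chevF4.Idx K)) ^ 2 := by
    rw [coe_pair φ ha0 hb0, trace_sq]
  rw [← e2]
  exact e1

include hφ2 hφ in
/-- The seventh roots of unity under the twisting map. -/
theorem phi_mu7 {m : ℕ} (he : e = 2 ^ m) {a : K} (ha : a ^ 7 = 1) : a = 1 ∨ φ a = a ^ 2 := by
  have hpow : ∀ n : ℕ, a ^ n = a ^ (n % 7) := fun n => pow_eq_pow_mod n ha
  have hφa : φ a = a ^ (2 ^ m % 7) := by
    rw [hφ, he]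
    exact hpow _
  have ha0 : a ≠ 0 := by
    rintro rfl
    simp at ha
  rcases pow2_mod7 m with h | h | h
  · left
    rw [h, pow_one] at hφa
    have h1 := hφ2 a
    rw [hφa, hφa] at h1
    have h2 : a * (a - 1) = 0 := by linear_combination h1
    rcases mul_eq_zero.1 h2 with h3 | h3
    · exact absurd h3 ha0
    · exact sub_eq_zero.1 h3
  · right
    rw [h] at hφa
    exact hφa
  · left
    rw [h] at hφa
    have h1 := hφ2 a
    rw [hφa, map_pow, hφa] at h1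
    have h2 : (a ^ 3 - 1) * a = 0 := by
      have e1 : a ^ 4 = a := by
        have e2 : ((a ^ 4) ^ 4) ^ 2 = (a ^ 7) ^ 4 * a ^ 4 := by ring
        rw [e2, ha] at h1
        simpa using h1
      linear_combination e1
    rcases mul_eq_zero.1 h2 with h3 | h3
    · have h4 : a ^ 3 = 1 := sub_eq_zero.1 h3
      have e3 : a * (a ^ 3) ^ 2 = a ^ 7 := by ring
      rw [h4, ha] at e3
      simpa using e3
    · exact absurd h3 ha0

include hφ2 hρ hτ hφ in
/-- No fusion in the group. -/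
theorem no_fusion_G {m : ℕ} (he : e = 2 ^ m) (hidx : ¬ 7 ∣ ((chevF4.diagonalSubgroup K).subgroupOf (twistedF4 K e)).index)
    {t x : ↥(twistedF4 K e)} (ht1 : t ≠ 1) (ht7 : t ^ 7 = 1) (hx : x * t * x⁻¹ = t ^ 2) : False := by
  have hp7 : Fact (Nat.Prime 7) := ⟨by norm_num⟩
  have hW : IsPGroup 7 (Subgroup.zpowers t) := by
    refine IsPGroup.of_card (n := 1) ?_
    rw [Nat.card_zpowers, pow_one]
    exact orderOf_eq_prime ht7 ht1
  obtain ⟨g, hg⟩ := conj_into 7 _ _ hidx hW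
  have h1 := hg t (Subgroup.mem_zpowers t)
  set t' := g⁻¹ * t * g with ht'
  have ht'H : (t' : GL chevF4.Idx K) ∈ chevF4.diagonalSubgroup K := h1
  obtain ⟨a, b, ha, hb, e1⟩ := H_Fx_form hρ hτ ht'H (G1_le_Fx hφ2 hρ hτ hφ t'.2)
  have h7 : t' ^ 7 = 1 := by
    have e2 : t' ^ 7 = g⁻¹ * t ^ 7 * g := by
      have e3 := conj_pow (a := g⁻¹) (b := t) (i := 7)
      rw [inv_inv] at e3
      rw [ht']
      exact e3
    rw [e2, ht7]
    group
  have h71 : hh φ 0 (a ^ 7) * hh φ 1 (b ^ 7) = hh φ 0 1 * hh φ 1 1 := by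
    rw [← pair_pow ha hb, ← e1, hh_one, hh_one, mul_one]
    have := congrArg Subtype.val h7
    simpa using this
  obtain ⟨ha7, hb7⟩ := hh_inj hρ hτ (pow_ne_zero 7 ha) (pow_ne_zero 7 hb) one_ne_zero one_ne_zero h71
  have hne : a ≠ 1 ∨ b ≠ 1 := by
    by_contra hc
    have hc' : a = 1 ∧ b = 1 := by
      by_contra hd
      apply hc
      by_cases h2 : a = 1
      · exact Or.inr (fun h3 => hd ⟨h2, h3⟩)
      · exact Or.inl h2
    have h3 : (t' : GL chevF4.Idx K) = 1 := by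
      rw [e1, hc'.1, hc'.2, hh_one, hh_one, mul_one]
    have h4 : t' = 1 := Subtype.ext h3
    apply ht1
    have e2 : t = g * t' * g⁻¹ := by
      rw [ht']
      group
    rw [e2, h4]
    group
  have hφs : ∀ {c : K}, c ^ 7 = 1 → φ c = c ^ 2 := by
    intro c hc
    rcases phi_mu7 hφ2 hφ he hc with h2 | h2
    · rw [h2, map_one, one_pow]
    · exact h2
  set x' := g⁻¹ * x * g with hx'
  have h8 : x' * t' * x'⁻¹ = t' ^ 2 := by
    have e2 : t' ^ 2 = g⁻¹ * t ^ 2 * g := by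
      have e3 := conj_pow (a := g⁻¹) (b := t) (i := 2)
      rw [inv_inv] at e3
      rw [ht']
      exact e3
    rw [e2, ← hx, hx', ht']
    group
  have h9 : (x' : GL chevF4.Idx K) * (hh φ 0 a * hh φ 1 b) * (x' : GL chevF4.Idx K)⁻¹ = (hh φ 0 a * hh φ 1 b) ^ 2 := by
    have h10 : (x' : GL chevF4.Idx K) * (t' : GL chevF4.Idx K) * (x' : GL chevF4.Idx K)⁻¹ = (t' : GL chevF4.Idx K) ^ 2 := by
      have := congrArg Subtype.val h8
      simpa using this
    rw [e1] at h10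
    exact h10
  exact no_fusion_torus ha hb ha7 hb7 hne (hφs ha7) (hφs hb7) _ h9

include hφ2 hρ hτ hφ in
/-- The index of the torus. -/
theorem idx_not7 {m : ℕ} (hq : Nat.card K = 2 ^ (2 * m + 1)) :
    ¬ 7 ∣ ((chevF4.diagonalSubgroup K).subgroupOf (twistedF4 K e)).index := by
  have h := Subgroup.card_mul_index ((chevF4.diagonalSubgroup K).subgroupOf (twistedF4 K e))
  rw [card_subgroupOf', card_H1 hφ2 hρ hτ hφ, card_G1 hφ2 hρ hτ hφ] at h
  have hq2 : 2 ≤ Nat.card K := by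
    rw [hq]
    calc 2 = 2 ^ 1 := by norm_num
      _ ≤ 2 ^ (2 * m + 1) := Nat.pow_le_pow_right (by norm_num) (by omega)
  set q := Nat.card K with hqd
  have hq0 : 0 < (q - 1) ^ 2 := pow_pos (by omega) _
  have e1 : q ^ 12 * (q - 1) ^ 2 * (1 + q + q ^ 2 + 2 * q ^ 3 + q ^ 4 + q ^ 5 + 2 * q ^ 6 + q ^ 7 + q ^ 8 + 2 * q ^ 9 + q ^ 10 + q ^ 11 + q ^ 12) =
      (q - 1) ^ 2 * (q ^ 12 * (1 + q + q ^ 2 + 2 * q ^ 3 + q ^ 4 + q ^ 5 + 2 * q ^ 6 + q ^ 7 + q ^ 8 + 2 * q ^ 9 + q ^ 10 + q ^ 11 + q ^ 12)) := by ring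
  rw [e1] at h
  have h1 := Nat.eq_of_mul_eq_mul_left hq0 h
  rw [h1]
  have hp : Nat.Prime 7 := by norm_num
  intro h2
  rcases (Nat.Prime.dvd_mul hp).1 h2 with h3 | h3
  · have h4 := hp.dvd_of_dvd_pow h3
    rw [hq] at h4
    have h5 := hp.dvd_of_dvd_pow h4
    omega
  · have hr := pow2_mod7 (2 * m + 1)
    rw [← hq] at hr
    have h6 := Nat.mod_eq_zero_of_dvd h3
    rcases hr with hr | hr | hr <;>
      simp [Nat.add_mod, Nat.mul_mod, Nat.pow_mod, hr] at h6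

include hφ2 hρ hτ hφ in
/-- The alternating sections of `²F₄(q)`. -/
theorem section_bound {m : ℕ} (hq : Nat.card K = 2 ^ (2 * m + 1)) (he : e = 2 ^ m) (r : ℕ) (H : Subgroup ↥(twistedF4 K e))
    (N : Subgroup ↥H) [N.Normal] (h : Nonempty (↥H ⧸ N ≃* ↥(alternatingGroup (Fin r)))) : r ≤ 6 := by
  by_contra hr
  have hr7 : 7 ≤ r := by omega
  obtain ⟨iso⟩ := h
  obtain ⟨c, d, hc, hc1, hd, hdc⟩ := Cfsg.Agent.Lib.AltSec.exists_alt_pair hr7
  have hidx := idx_not7 hφ2 hρ hτ hφ hq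
  have hp7 : Fact (Nat.Prime 7) := ⟨by norm_num⟩
  let f : ↥H →* ↥(alternatingGroup (Fin r)) := iso.toMonoidHom.comp (QuotientGroup.mk' N)
  have hf : Function.Surjective f := iso.surjective.comp (QuotientGroup.mk'_surjective N)
  have hab : ∀ W : Subgroup ↥H, IsPGroup 7 W → ∀ a ∈ W, ∀ b ∈ W, a * b = b * a := by
    intro W hW a ha b hb
    obtain ⟨g, hg⟩ := conj_into 7 _ (W.map H.subtype) hidx (hW.map _)
    have h1 := hg a ⟨a, ha, rfl⟩
    have h2 := hg b ⟨b, hb, rfl⟩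
    have h3 : (g⁻¹ * (a : ↥(twistedF4 K e)) * g) * (g⁻¹ * (b : ↥(twistedF4 K e)) * g) =
        (g⁻¹ * (b : ↥(twistedF4 K e)) * g) * (g⁻¹ * (a : ↥(twistedF4 K e)) * g) :=
      Subtype.ext (H_comm' h1 h2)
    have h4 : (a : ↥(twistedF4 K e)) * b = b * a := by
      calc (a : ↥(twistedF4 K e)) * b = g * ((g⁻¹ * (a : ↥(twistedF4 K e)) * g) * (g⁻¹ * (b : ↥(twistedF4 K e)) * g)) * g⁻¹ := by group
        _ = g * ((g⁻¹ * (b : ↥(twistedF4 K e)) * g) * (g⁻¹ * (a : ↥(twistedF4 K e)) * g)) * g⁻¹ := by rw [h3]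
        _ = _ := by group
    exact Subtype.ext h4
  obtain ⟨t, x, ht1, ht7, hx⟩ := Cfsg.Agent.Lib.AltSec.exists_fusion 7 3 (by norm_num) (by norm_num) f hf c d hc hc1 hd hdc hab
  exact no_fusion_G hφ2 hρ hτ hφ he hidx (t := t) (x := x) (fun h => ht1 (Subtype.ext h)) (congrArg Subtype.val ht7) (congrArg Subtype.val hx)

end main

end Cfsg.Agent.Lib.TF4.ASec
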