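import Cfsg.Agent.Lib.TF4.I2Par
import Cfsg.Agent.Lib.Twisted.AutCount

/-!
# Automorphisms of `²F₄(q)`: reduction to automorphisms preserving `U¹` and `V¹`
-/

set_option autoImplicit false
set_option linter.unusedSectionVars false
set_option linter.unusedVariables false
set_option linter.unusedSimpArgs false
set_option maxRecDepth 100000

namespace Cfsg.Agent.Lib.TF4.I2

open Cfsg DoubleCoset
open Cfsg.Lie Cfsg.Agent.Lib.Twisted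
open Cfsg.Agent.Lib.Chevalley.Tbl.F4 (sys comm)
open Cfsg.Agent.Lib.ChevBN.Elem Cfsg.Agent.Lib.ChevBN.Table Cfsg.Agent.Lib.ChevBN.Rel
open Cfsg.Agent.Lib.ChevBN.Opp Cfsg.Agent.Lib.ChevBN.Pair Cfsg.Agent.Lib.ChevBN.Torus Cfsg.Agent.Lib.ChevBN.Stmts
open Cfsg.Agent.Lib.ChevOrder.BNCount Cfsg.Agent.Lib.BNPair.Basic Cfsg.Agent.Lib.BNPair.Parabolic
open Cfsg.Agent.Lib.ChevBN.FastData (tbl_chevF4)
open Cfsg.Agent.Lib.TF4.T2 (posL pos_of posL_of)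

universe u

variable {K : Type u} [Field K] [CharP K 2]

set_option quotPrecheck false in
/-- The root elements. -/
local notation "Xr" => X (sys (F := _)).toAddRel

/-- `N0` exchanges `U` and `V`. -/
theorem N0_swap : (∀ g : GL chevF4.Idx K, N0 * g * N0⁻¹ ∈ chevF4.negUnipotent K ↔ g ∈ chevF4.posUnipotent K) ∧
    (∀ g : GL chevF4.Idx K, N0 * g * N0⁻¹ ∈ chevF4.posUnipotent K ↔ g ∈ chevF4.negUnipotent K) := by
  refine Cfsg.Agent.Lib.ChevAut.Inner.moving_opp sys tbl_chevF4 (pn_neg sys tbl_chevF4 N0_N) (pn_conj sys tbl_chevF4 N0_N) ?_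
  intro r hr
  have h1 : (pn sys tbl_chevF4 (N0_N (K := K)) r).val = fw lN0 r.val := pn_prodA sys tbl_chevF4 lN0_lt r
  show chevF4.IsNegRoot (pn sys tbl_chevF4 (N0_N (K := K)) r).val
  rw [h1, N0_neg r.val r.isLt]
  exact tbl_chevF4.neg_of_pos hr

theorem nl_P2' (φ : K →+* K) (l : List (Fin 2)) {a b : ℕ} (ha : a < chevF4.nroots) (hb : b < chevF4.nroots) (u : K) :
    nl l * P2 φ a b u * (nl l)⁻¹ = P2 φ (fwl l a) (fwl l b) u := by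
  unfold nl
  rw [P2_conj φ (flat_lt l) ha hb]
  rfl

theorem word_neg_chk : ∀ l ∈ wordsW, l ≠ [] → (fwl l 33 < 24 ∧ fwl l 24 < 24) ∨ (fwl l 28 < 24 ∧ fwl l 30 < 24) := by
  decide +kernel

theorem word_pos_chk : ∀ l ∈ wordsW, l ≠ [0, 1, 0, 1, 0, 1, 0, 1] →
    (fwl l 33 ∈ posL ∧ fwl l 24 ∈ posL) ∨ (fwl l 28 ∈ posL ∧ fwl l 30 ∈ posL) := by
  decide +kernel

theorem Y8z (φ : K →+* K) (u : K) : Y8 φ 0 u = P2 φ 28 30 u := by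
  simp [E2, P2]

theorem nl_long : nl ([0, 1, 0, 1, 0, 1, 0, 1] : List (Fin 2)) = (N0 : GL chevF4.Idx K) := by
  unfold nl N0
  rw [lN0_eq]

section
variable {φ : K →+* K} (hφ2 : ∀ t, (φ (φ t)) ^ 2 = t) {T : Tw (sys (F := K)).toAddRel} (hρ : T.ρ = ρ0)
  (hτ : ∀ r t, T.τ r t = lam r (φ t)) {e : ℕ} (hφ : ∀ t, φ t = t ^ e) [Finite K]

include hφ2 hρ hτ hφ

/-- A nontrivial element of `U¹` moved into `V` by a nontrivial word. -/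
theorem exists_neg_class {l : List (Fin 2)} (hl : l ∈ wordsW) (h0 : l ≠ []) :
    ∃ x : ↥(twistedF4 K e), (x : GL chevF4.Idx K) ∈ chevF4.posUnipotent K ∧ x ≠ 1 ∧
      nl l * (x : GL chevF4.Idx K) * (nl l)⁻¹ ∈ chevF4.negUnipotent K := by
  rcases word_neg_chk l hl h0 with ⟨h1, h2⟩ | ⟨h1, h2⟩
  · refine ⟨⟨Y1 φ 1, Y1_mem hφ2 hρ hτ hφ 1⟩, (Y1_U1 hφ2 hρ hτ hφ 1).1, fun h => z2_ne φ (congrArg Subtype.val h), ?_⟩
    show nl l * P2 φ 33 24 1 * (nl l)⁻¹ ∈ _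
    rw [nl_P2' φ l (by decide +kernel) (by decide +kernel)]
    exact P2_V φ h1 h2 _
  · refine ⟨⟨Y8 φ 0 1, Y8_mem hφ2 hρ hτ hφ 0 1⟩, (Y8_U1 hφ2 hρ hτ hφ 0 1).1, fun h => z1_ne φ (congrArg Subtype.val h), ?_⟩
    show nl l * Y8 φ 0 1 * (nl l)⁻¹ ∈ _
    rw [Y8z, nl_P2' φ l (by decide +kernel) (by decide +kernel)]
    exact P2_V φ h1 h2 _

/-- A nontrivial element of `U¹` moved into `U` by a word which is not the longest one. -/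
theorem exists_pos_class {l : List (Fin 2)} (hl : l ∈ wordsW) (h0 : l ≠ [0, 1, 0, 1, 0, 1, 0, 1]) :
    ∃ x : ↥(twistedF4 K e), (x : GL chevF4.Idx K) ∈ chevF4.posUnipotent K ∧ x ≠ 1 ∧
      nl l * (x : GL chevF4.Idx K) * (nl l)⁻¹ ∈ chevF4.posUnipotent K := by
  rcases word_pos_chk l hl h0 with ⟨h1, h2⟩ | ⟨h1, h2⟩
  · refine ⟨⟨Y1 φ 1, Y1_mem hφ2 hρ hτ hφ 1⟩, (Y1_U1 hφ2 hρ hτ hφ 1).1, fun h => z2_ne φ (congrArg Subtype.val h), ?_⟩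
    show nl l * P2 φ 33 24 1 * (nl l)⁻¹ ∈ _
    rw [nl_P2' φ l (by decide +kernel) (by decide +kernel)]
    exact P2_U φ h1 h2 _
  · refine ⟨⟨Y8 φ 0 1, Y8_mem hφ2 hρ hτ hφ 0 1⟩, (Y8_U1 hφ2 hρ hτ hφ 0 1).1, fun h => z1_ne φ (congrArg Subtype.val h), ?_⟩
    show nl l * Y8 φ 0 1 * (nl l)⁻¹ ∈ _
    rw [Y8z, nl_P2' φ l (by decide +kernel) (by decide +kernel)]
    exact P2_U φ h1 h2 _

end

section
variable {φ : K →+* K} (hφ2 : ∀ t, (φ (φ t)) ^ 2 = t) {T : Tw (sys (F := K)).toAddRel} (hρ : T.ρ = ρ0)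
  (hτ : ∀ r t, T.τ r t = lam r (φ t)) {e : ℕ} (hφ : ∀ t, φ t = t ^ e) [Finite K]
  {P : Cfsg.BNPair ↥(twistedF4 K e)}
  (hB : P.B = (chevF4.borelSubgroup K ⊓ twistedF4 K e).subgroupOf (twistedF4 K e))
  (hN : P.N = (chevF4.monomialSubgroup K ⊓ twistedF4 K e).subgroupOf (twistedF4 K e))
  (hS : P.S = {g : ↥(twistedF4 K e) | (g : GL chevF4.Idx K) ∈ Set.range (nw (K := K))})

include hφ2 hρ hτ hφ hB hN hS

/-- `B¹` is the normaliser of `U¹`. -/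
theorem mem_B_of_norm (g : ↥(twistedF4 K e))
    (h : ∀ u : ↥(twistedF4 K e), (u : GL chevF4.Idx K) ∈ chevF4.posUnipotent K →
      ((g * u * g⁻¹ : ↥(twistedF4 K e)) : GL chevF4.Idx K) ∈ chevF4.posUnipotent K) :
    (g : GL chevF4.Idx K) ∈ chevF4.borelSubgroup K := by
  have hnw := nw_mem (K := K) hφ2 hρ hτ hφ
  obtain ⟨l, hl, b₁, hb₁, b₂, hb₂, rfl⟩ := bruhat_word hφ2 hρ hτ hφ hB hN hS g
  have hb₁' : (b₁ : GL chevF4.Idx K) ∈ chevF4.borelSubgroup K := (memPB hB _).1 hb₁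
  have hb₂' : (b₂ : GL chevF4.Idx K) ∈ chevF4.borelSubgroup K := (memPB hB _).1 hb₂
  by_cases h0 : l = []
  · subst h0
    have e1 : ((b₁ * ⟨nl [], pw_mem hnw []⟩ * b₂ : ↥(twistedF4 K e)) : GL chevF4.Idx K) = (b₁ : GL chevF4.Idx K) * (b₂ : GL chevF4.Idx K) := by
      show (b₁ : GL chevF4.Idx K) * prodA sys [] * (b₂ : GL chevF4.Idx K) = _
      simp [prodA]
    rw [e1]
    exact Subgroup.mul_mem _ hb₁' hb₂'
  exfalso
  obtain ⟨x, hxU, hx1, hxV⟩ := exists_neg_class hφ2 hρ hτ hφ hl h0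
  let v : ↥(twistedF4 K e) := b₂⁻¹ * x * b₂
  have hvU : (v : GL chevF4.Idx K) ∈ chevF4.posUnipotent K := by
    have := Cfsg.Agent.Lib.ChevAut.B_norm_U sys tbl_chevF4 (Subgroup.inv_mem _ hb₂') hxU
    simpa [v] using this
  have h1 := h v hvU
  have h2 := Cfsg.Agent.Lib.ChevAut.B_norm_U sys tbl_chevF4 (Subgroup.inv_mem _ hb₁') h1
  have e2 : (b₁ : GL chevF4.Idx K)⁻¹ * (((b₁ * ⟨nl l, pw_mem hnw l⟩ * b₂ : ↥(twistedF4 K e)) * v * (b₁ * ⟨nl l, pw_mem hnw l⟩ * b₂)⁻¹ : ↥(twistedF4 K e)) : GL chevF4.Idx K) * ((b₁ : GL chevF4.Idx K)⁻¹)⁻¹ =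
      nl l * (x : GL chevF4.Idx K) * (nl l)⁻¹ := by
    show (b₁ : GL chevF4.Idx K)⁻¹ * (((b₁ : GL chevF4.Idx K) * nl l * (b₂ : GL chevF4.Idx K)) * ((b₂ : GL chevF4.Idx K)⁻¹ * (x : GL chevF4.Idx K) * (b₂ : GL chevF4.Idx K)) * ((b₁ : GL chevF4.Idx K) * nl l * (b₂ : GL chevF4.Idx K))⁻¹) * ((b₁ : GL chevF4.Idx K)⁻¹)⁻¹ = _
    group
  rw [e2] at h2
  have h3 := UV_one h2 hxV
  exact hx1 (Subtype.ext (conj_eq_one h3))

/-- The normaliser of both `U¹` and `V¹` is `H¹`. -/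
theorem mem_H_of_norm (g : ↥(twistedF4 K e))
    (hU : ∀ u : ↥(twistedF4 K e), (u : GL chevF4.Idx K) ∈ chevF4.posUnipotent K →
      ((g * u * g⁻¹ : ↥(twistedF4 K e)) : GL chevF4.Idx K) ∈ chevF4.posUnipotent K)
    (hV : ∀ u : ↥(twistedF4 K e), (u : GL chevF4.Idx K) ∈ chevF4.negUnipotent K →
      ((g * u * g⁻¹ : ↥(twistedF4 K e)) : GL chevF4.Idx K) ∈ chevF4.negUnipotent K) :
    (g : GL chevF4.Idx K) ∈ chevF4.diagonalSubgroup K := by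
  have hb := mem_B_of_norm hφ2 hρ hτ hφ hB hN hS g hU
  obtain ⟨x, hx, α, β, hα, hβ, e1⟩ := B1_form hφ2 hρ hτ hφ ⟨hb, g.2⟩
  have hN0 := N0_mem (K := K) hφ2 hρ hτ hφ
  have hxG := U_Fx_le hφ2 hρ hτ hφ hx
  have hh0 : hh φ 0 α * hh φ 1 β ∈ chevF4.diagonalSubgroup K := Subgroup.mul_mem _ (hh_H 0 hα) (hh_H 1 hβ)
  have hh1 : hh φ 0 α * hh φ 1 β ∈ twistedF4 K e := Subgroup.mul_mem _ (hh_mem hφ2 hρ hτ hφ 0 hα) (hh_mem hφ2 hρ hτ hφ 1 hβ)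
  set d := hh φ 0 α * hh φ 1 β with hd
  -- `x` normalises `V¹`
  have hxV : ∀ v : ↥(twistedF4 K e), (v : GL chevF4.Idx K) ∈ chevF4.negUnipotent K → x * (v : GL chevF4.Idx K) * x⁻¹ ∈ chevF4.negUnipotent K := by
    intro v hv
    let d' : ↥(twistedF4 K e) := ⟨d, hh1⟩
    have h1 : ((d'⁻¹ * v * d' : ↥(twistedF4 K e)) : GL chevF4.Idx K) ∈ chevF4.negUnipotent K := by
      show d⁻¹ * (v : GL chevF4.Idx K) * d ∈ _
      rw [negUnipotent_eq (sys (F := K)).toAddRel] at hv ⊢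
      have := H_conj_gen sys tbl_chevF4 (Subgroup.inv_mem _ hh0) (Ψ := {r | chevF4.IsNegRoot r}) (fun r hr => hr.1) hv
      simpa using this
    have h2 := hV _ h1
    have e2 : ((g * (d'⁻¹ * v * d') * g⁻¹ : ↥(twistedF4 K e)) : GL chevF4.Idx K) = x * (v : GL chevF4.Idx K) * x⁻¹ := by
      show (g : GL chevF4.Idx K) * (d⁻¹ * (v : GL chevF4.Idx K) * d) * (g : GL chevF4.Idx K)⁻¹ = _
      rw [e1]
      group
    rwa [e2] at h2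
  -- the conjugate by `N0` normalises `U¹`
  let z : ↥(twistedF4 K e) := ⟨N0 * x * N0⁻¹, Subgroup.mul_mem _ (Subgroup.mul_mem _ hN0 hxG) (Subgroup.inv_mem _ hN0)⟩
  have hzU : ∀ u : ↥(twistedF4 K e), (u : GL chevF4.Idx K) ∈ chevF4.posUnipotent K →
      ((z * u * z⁻¹ : ↥(twistedF4 K e)) : GL chevF4.Idx K) ∈ chevF4.posUnipotent K := by
    intro u hu
    let v : ↥(twistedF4 K e) := ⟨N0 * (u : GL chevF4.Idx K) * N0⁻¹, Subgroup.mul_mem _ (Subgroup.mul_mem _ hN0 u.2) (Subgroup.inv_mem _ hN0)⟩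
    have hv : (v : GL chevF4.Idx K) ∈ chevF4.negUnipotent K := (N0_swap.1 _).2 hu
    have h1 := hxV v hv
    have h2 := (N0_swap.2 _).2 h1
    have e2 : N0 * (x * (v : GL chevF4.Idx K) * x⁻¹) * N0⁻¹ = ((z * u * z⁻¹ : ↥(twistedF4 K e)) : GL chevF4.Idx K) := by
      show N0 * (x * (N0 * (u : GL chevF4.Idx K) * N0⁻¹) * x⁻¹) * N0⁻¹ = (N0 * x * N0⁻¹) * (u : GL chevF4.Idx K) * (N0 * x * N0⁻¹)⁻¹
      simp only [N0_inv, _root_.mul_inv_rev, inv_inv, mul_assoc]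
    rwa [e2] at h2
  have hzB := mem_B_of_norm hφ2 hρ hτ hφ hB hN hS z hzU
  have hzV : N0 * x * N0⁻¹ ∈ chevF4.negUnipotent K := (N0_swap.1 _).2 hx.1
  have hz1 : N0 * x * N0⁻¹ = 1 := by
    have h3 : N0 * x * N0⁻¹ ∈ chevF4.borelSubgroup K ⊓ chevF4.negUnipotent K := ⟨hzB, hzV⟩
    rwa [B_inf_V sys tbl_chevF4, Subgroup.mem_bot] at h3
  have hx1 : x = 1 := conj_eq_one hz1
  rw [e1, hx1, one_mul]
  exact hh0

end

end Cfsg.Agent.Lib.TF4.I2
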