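import Cfsg.Agent.Lib.TF4.I2Aut1

/-!
# Automorphisms of `²F₄(q)`: the Borel subgroup, the torus, the minimal parabolic subgroups
-/

set_option autoImplicit false
set_option linter.unusedSectionVars false
set_option linter.unusedVariables false
set_option linter.unusedSimpArgs false
set_option maxRecDepth 100000

namespace Cfsg.Agent.Lib.TF4.I2

open Cfsg DoubleCoset
open Cfsg.Lie Cfsg.Agent.Lib.Twisted
open Cfsg.Agent.Lib.Chevalley.Tbl.F4 (sys comm)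
open Cfsg.Agent.Lib.ChevBN.Elem Cfsg.Agent.Lib.ChevBN.Table Cfsg.Agent.Lib.ChevBN.Rel
open Cfsg.Agent.Lib.ChevBN.Opp Cfsg.Agent.Lib.ChevBN.Pair Cfsg.Agent.Lib.ChevBN.Torus Cfsg.Agent.Lib.ChevBN.Stmts
open Cfsg.Agent.Lib.ChevOrder.BNCount Cfsg.Agent.Lib.BNPair.Basic Cfsg.Agent.Lib.BNPair.Parabolic
open Cfsg.Agent.Lib.ChevBN.FastData (tbl_chevF4)
open Cfsg.Agent.Lib.TF4.T2 (posL pos_of posL_of)

universe u

variable {K : Type u} [Field K] [CharP K 2]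

set_option quotPrecheck false in
/-- The root elements. -/
local notation "Xr" => X (sys (F := _)).toAddRel

theorem H_norm_V' {h v : GL chevF4.Idx K} (hh : h ∈ chevF4.diagonalSubgroup K) (hv : v ∈ chevF4.negUnipotent K) :
    h * v * h⁻¹ ∈ chevF4.negUnipotent K := by
  rw [negUnipotent_eq (sys (F := K)).toAddRel] at hv ⊢
  exact H_conj_gen sys tbl_chevF4 hh (Ψ := {r | chevF4.IsNegRoot r}) (fun r hr => hr.1) hv

theorem H_norm_U' {h v : GL chevF4.Idx K} (hh : h ∈ chevF4.diagonalSubgroup K) (hv : v ∈ chevF4.posUnipotent K) :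
    h * v * h⁻¹ ∈ chevF4.posUnipotent K :=
  Cfsg.Agent.Lib.ChevAut.B_norm_U sys tbl_chevF4 (H_le_B sys tbl_chevF4 hh) hv

theorem presUT_symm {G1 : Subgroup (GL chevF4.Idx K)} {θ : ↥G1 ≃* ↥G1} (h : PresUT θ) : PresUT θ.symm := by
  intro g
  rw [← h (θ.symm g)]
  simp

theorem presVT_symm {G1 : Subgroup (GL chevF4.Idx K)} {θ : ↥G1 ≃* ↥G1} (h : PresVT θ) : PresVT θ.symm := by
  intro g
  rw [← h (θ.symm g)]
  simp

section
variable {φ : K →+* K} (hφ2 : ∀ t, (φ (φ t)) ^ 2 = t) {T : Tw (sys (F := K)).toAddRel} (hρ : T.ρ = ρ0)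
  (hτ : ∀ r t, T.τ r t = lam r (φ t)) {e : ℕ} (hφ : ∀ t, φ t = t ^ e) [Finite K]
  {P : Cfsg.BNPair ↥(twistedF4 K e)}
  (hB : P.B = (chevF4.borelSubgroup K ⊓ twistedF4 K e).subgroupOf (twistedF4 K e))
  (hN : P.N = (chevF4.monomialSubgroup K ⊓ twistedF4 K e).subgroupOf (twistedF4 K e))
  (hS : P.S = {g : ↥(twistedF4 K e) | (g : GL chevF4.Idx K) ∈ Set.range (nw (K := K))})

include hφ2 hρ hτ hφ hB hN hS

/-- An automorphism preserving `U¹` preserves `B¹`. -/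
theorem presB {θ : ↥(twistedF4 K e) ≃* ↥(twistedF4 K e)} (hθ : PresUT θ) (g : ↥(twistedF4 K e)) :
    ((θ g : ↥(twistedF4 K e)) : GL chevF4.Idx K) ∈ chevF4.borelSubgroup K ↔ (g : GL chevF4.Idx K) ∈ chevF4.borelSubgroup K := by
  constructor
  · intro h
    refine mem_B_of_norm hφ2 hρ hτ hφ hB hN hS g (fun u hu => ?_)
    rw [← hθ, map_mul, map_mul, map_inv]
    exact Cfsg.Agent.Lib.ChevAut.B_norm_U sys tbl_chevF4 h ((hθ u).2 hu)
  · intro h
    refine mem_B_of_norm hφ2 hρ hτ hφ hB hN hS (θ g) (fun u hu => ?_)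
    have h1 : ((θ.symm u : ↥(twistedF4 K e)) : GL chevF4.Idx K) ∈ chevF4.posUnipotent K := (presUT_symm hθ u).2 hu
    have h2 := Cfsg.Agent.Lib.ChevAut.B_norm_U sys tbl_chevF4 h h1
    have e1 : θ g * u * (θ g)⁻¹ = θ (g * θ.symm u * g⁻¹) := by simp
    rw [e1]
    exact (hθ _).2 h2

/-- An automorphism preserving `U¹` and `V¹` preserves `H¹`. -/
theorem presH {θ : ↥(twistedF4 K e) ≃* ↥(twistedF4 K e)} (hU : PresUT θ) (hV : PresVT θ) {g : ↥(twistedF4 K e)}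
    (hg : (g : GL chevF4.Idx K) ∈ chevF4.diagonalSubgroup K) :
    ((θ g : ↥(twistedF4 K e)) : GL chevF4.Idx K) ∈ chevF4.diagonalSubgroup K := by
  refine mem_H_of_norm hφ2 hρ hτ hφ hB hN hS (θ g) (fun u hu => ?_) (fun u hu => ?_)
  · have h1 : ((θ.symm u : ↥(twistedF4 K e)) : GL chevF4.Idx K) ∈ chevF4.posUnipotent K := (presUT_symm hU u).2 hu
    have h2 := H_norm_U' hg h1
    have e1 : θ g * u * (θ g)⁻¹ = θ (g * θ.symm u * g⁻¹) := by simp
    rw [e1]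
    exact (hU _).2 h2
  · have h1 : ((θ.symm u : ↥(twistedF4 K e)) : GL chevF4.Idx K) ∈ chevF4.negUnipotent K := (presVT_symm hV u).2 hu
    have h2 := H_norm_V' hg h1
    have e1 : θ g * u * (θ g)⁻¹ = θ (g * θ.symm u * g⁻¹) := by simp
    rw [e1]
    exact (hV _).2 h2

/-- Up to conjugation by an element of `U¹`, an automorphism preserving `U¹` also preserves `V¹`. -/
theorem exists_presV' {θ : ↥(twistedF4 K e) ≃* ↥(twistedF4 K e)} (hθ : PresUT θ) :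
    ∃ x : ↥(twistedF4 K e), PresUT (conjByT θ x) ∧ PresVT (conjByT θ x) := by
  have hnw := nw_mem (K := K) hφ2 hρ hτ hφ
  have hN0 := N0_mem (K := K) hφ2 hρ hτ hφ
  let nG : ↥(twistedF4 K e) := ⟨N0, hN0⟩
  obtain ⟨l, hl, b₁, hb₁, b₂, hb₂, e1⟩ := bruhat_word hφ2 hρ hτ hφ hB hN hS (θ nG)
  obtain ⟨u, hu, α, β, hα, hβ, e₁⟩ := B1_form hφ2 hρ hτ hφ (b := b₁) ⟨(memPB hB _).1 hb₁, b₁.2⟩
  have huG := U_Fx_le hφ2 hρ hτ hφ hu
  have hh0 : hh φ 0 α * hh φ 1 β ∈ chevF4.diagonalSubgroup K := Subgroup.mul_mem _ (hh_H 0 hα) (hh_H 1 hβ)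
  have hh1 : hh φ 0 α * hh φ 1 β ∈ twistedF4 K e := Subgroup.mul_mem _ (hh_mem hφ2 hρ hτ hφ 0 hα) (hh_mem hφ2 hρ hτ hφ 1 hβ)
  set d := hh φ 0 α * hh φ 1 β with hd
  let uG : ↥(twistedF4 K e) := ⟨u, huG⟩
  let dG : ↥(twistedF4 K e) := ⟨d, hh1⟩
  have e₂ : b₁ = uG * dG := Subtype.ext e₁
  set θ₂ := conjByT θ uG with hθ₂
  have hU2 : PresUT θ₂ := by
    intro g
    rw [hθ₂, conjByT_apply, ← hθ g]
    constructor
    · intro h1
      have := Subgroup.mul_mem _ (Subgroup.mul_mem _ hu.1 h1) (Subgroup.inv_mem _ hu.1)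
      simpa [uG, mul_assoc] using this
    · intro h1
      exact Subgroup.mul_mem _ (Subgroup.mul_mem _ (Subgroup.inv_mem _ hu.1) h1) hu.1
  let nlG : ↥(twistedF4 K e) := ⟨nl l, pw_mem hnw l⟩
  have e1' : θ nG = b₁ * nlG * b₂ := e1
  set m' : ↥(twistedF4 K e) := dG * nlG with hm'
  have hb₂' : (b₂ : GL chevF4.Idx K) ∈ chevF4.borelSubgroup K := (memPB hB _).1 hb₂
  have key : ∀ g : ↥(twistedF4 K e), (g : GL chevF4.Idx K) ∈ chevF4.negUnipotent K ↔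
      ((m'⁻¹ * θ₂ g * m' : ↥(twistedF4 K e)) : GL chevF4.Idx K) ∈ chevF4.posUnipotent K := by
    intro g
    have h1 : (g : GL chevF4.Idx K) ∈ chevF4.negUnipotent K ↔
        ((nG⁻¹ * g * nG : ↥(twistedF4 K e)) : GL chevF4.Idx K) ∈ chevF4.posUnipotent K := by
      rw [← N0_swap.1 (((nG⁻¹ * g * nG : ↥(twistedF4 K e)) : GL chevF4.Idx K))]
      have e3 : N0 * ((nG⁻¹ * g * nG : ↥(twistedF4 K e)) : GL chevF4.Idx K) * N0⁻¹ = (g : GL chevF4.Idx K) := by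
        show N0 * ((N0 : GL chevF4.Idx K)⁻¹ * (g : GL chevF4.Idx K) * N0) * N0⁻¹ = _
        group
      rw [e3]
    rw [h1, ← hθ]
    have e4 : b₂ * θ (nG⁻¹ * g * nG) * b₂⁻¹ = m'⁻¹ * θ₂ g * m' := by
      rw [hθ₂, conjByT_apply, map_mul, map_mul, map_inv, e1', e₂, hm']
      group
    rw [← e4]
    constructor
    · intro h2
      exact Cfsg.Agent.Lib.ChevAut.B_norm_U sys tbl_chevF4 hb₂' h2
    · intro h2
      have h3 := Cfsg.Agent.Lib.ChevAut.B_norm_U sys tbl_chevF4 (Subgroup.inv_mem _ hb₂') h2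
      have e5 : (b₂ : GL chevF4.Idx K)⁻¹ * ((b₂ * θ (nG⁻¹ * g * nG) * b₂⁻¹ : ↥(twistedF4 K e)) : GL chevF4.Idx K) * ((b₂ : GL chevF4.Idx K)⁻¹)⁻¹ =
          ((θ (nG⁻¹ * g * nG) : ↥(twistedF4 K e)) : GL chevF4.Idx K) := by
        show (b₂ : GL chevF4.Idx K)⁻¹ * ((b₂ : GL chevF4.Idx K) * ((θ (nG⁻¹ * g * nG) : ↥(twistedF4 K e)) : GL chevF4.Idx K) * (b₂ : GL chevF4.Idx K)⁻¹) * ((b₂ : GL chevF4.Idx K)⁻¹)⁻¹ = _
        group
      rwa [e5] at h3
  have hinter : ∀ x : ↥(twistedF4 K e), (x : GL chevF4.Idx K) ∈ chevF4.posUnipotent K →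
      nl l * (x : GL chevF4.Idx K) * (nl l)⁻¹ ∈ chevF4.posUnipotent K → x = 1 := by
    intro g hgU hmg
    let x : ↥(twistedF4 K e) := m' * g * m'⁻¹
    have hxU : (x : GL chevF4.Idx K) ∈ chevF4.posUnipotent K := by
      have h2 := H_norm_U' hh0 hmg
      have e0 : (x : GL chevF4.Idx K) = d * (nl l * (g : GL chevF4.Idx K) * (nl l)⁻¹) * d⁻¹ := by
        show (d * nl l) * (g : GL chevF4.Idx K) * (d * nl l)⁻¹ = _
        group
      rw [e0]
      exact h2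
    set z := θ₂.symm x with hz
    have hz2 : θ₂ z = x := by simp [hz]
    have hzU : (z : GL chevF4.Idx K) ∈ chevF4.posUnipotent K := by
      rw [← hU2 z, hz2]
      exact hxU
    have hzV : (z : GL chevF4.Idx K) ∈ chevF4.negUnipotent K := by
      rw [key z, hz2]
      have e5 : ((m'⁻¹ * x * m' : ↥(twistedF4 K e)) : GL chevF4.Idx K) = g := by
        have : m'⁻¹ * x * m' = g := by
          simp only [x]
          group
        rw [this]
      rw [e5]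
      exact hgU
    have hz1 : z = 1 := Subtype.ext (UV_one hzU hzV)
    rw [hz1, map_one] at hz2
    have e6 : x = 1 := hz2.symm
    have e7 : g = m'⁻¹ * x * m' := by
      simp only [x]
      group
    rw [e7, e6]
    group
  have hlong : l = [0, 1, 0, 1, 0, 1, 0, 1] := by
    by_contra hne
    obtain ⟨x, h1, h2, h3⟩ := exists_pos_class hφ2 hρ hτ hφ hl hne
    exact h2 (hinter x h1 h3)
  subst hlong
  have hnl : (nlG : GL chevF4.Idx K) = N0 := nl_long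
  refine ⟨uG, hU2, fun g => ?_⟩
  rw [key g]
  have e6 : ((m'⁻¹ * θ₂ g * m' : ↥(twistedF4 K e)) : GL chevF4.Idx K) = N0 * (d⁻¹ * ((θ₂ g : ↥(twistedF4 K e)) : GL chevF4.Idx K) * d) * N0⁻¹ := by
    show ((dG : GL chevF4.Idx K) * nlG)⁻¹ * ((θ₂ g : ↥(twistedF4 K e)) : GL chevF4.Idx K) * ((dG : GL chevF4.Idx K) * nlG) = _
    rw [hnl]
    show (d * N0)⁻¹ * ((θ₂ g : ↥(twistedF4 K e)) : GL chevF4.Idx K) * (d * N0) = _
    simp only [N0_inv, _root_.mul_inv_rev, mul_assoc]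
  rw [e6, N0_swap.2]
  constructor
  · intro h1
    have h2 := H_norm_V' (Subgroup.inv_mem _ hh0) h1
    rwa [inv_inv] at h2
  · intro h1
    have h2 := H_norm_V' hh0 h1
    have e7 : d * (d⁻¹ * ((θ₂ g : ↥(twistedF4 K e)) : GL chevF4.Idx K) * d) * d⁻¹ = ((θ₂ g : ↥(twistedF4 K e)) : GL chevF4.Idx K) := by group
    rwa [e7] at h2

/-- An automorphism preserving `U¹` preserves the minimal parabolic subgroups. -/
theorem par_inv {θ : ↥(twistedF4 K e) ≃* ↥(twistedF4 K e)} (hθ : PresUT θ) (j : Fin 2) (g : ↥(twistedF4 K e)) :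
    θ g ∈ P.parabolic {eP (nw_mem hφ2 hρ hτ hφ) j} ↔ g ∈ P.parabolic {eP (nw_mem hφ2 hρ hτ hφ) j} := by
  classical
  have hnw := nw_mem (K := K) hφ2 hρ hτ hφ
  have hBθ : ∀ g, θ g ∈ P.B ↔ g ∈ P.B := by
    intro g
    rw [memPB hB, memPB hB]
    exact presB hφ2 hρ hτ hφ hB hN hS hθ g
  obtain ⟨s', hs', h⟩ := bn_exists_image hBθ (eP_mem hnw hS j)
  obtain ⟨j', rfl⟩ := eP_surj hnw hS s' hs'
  have hcard : Nat.card (P.parabolic {eP hnw j}) = Nat.card (P.parabolic {eP hnw j'}) :=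
    Nat.card_congr (Equiv.subtypeEquiv θ.toEquiv fun a => (h a).symm)
  rw [card_par hφ2 hρ hτ hφ hB hS j, card_par hφ2 hρ hτ hφ hB hS j'] at hcard
  have hq : 2 ≤ Nat.card K := Finite.one_lt_card
  have hpos : 0 < Nat.card K ^ 12 * (Nat.card K - 1) ^ 2 := by
    have : 0 < Nat.card K - 1 := by omega
    positivity
  have h1 := Nat.eq_of_mul_eq_mul_right hpos hcard
  have h2 : QQ (Nat.card K) j = QQ (Nat.card K) j' := by omega
  have hjj : j = j' := by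
    by_contra hne
    have hq2 : Nat.card K ≠ Nat.card K ^ 2 := by nlinarith
    fin_cases j <;> fin_cases j' <;> simp_all [QQ]
  rw [← hjj] at h
  exact h g

end

end Cfsg.Agent.Lib.TF4.I2
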