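import Cfsg.Agent.Lib.TF4.I2Aut2

/-!
# Automorphisms of `²F₄(q)`: the fundamental root groups are preserved
-/

set_option autoImplicit false
set_option linter.unusedSectionVars false
set_option linter.unusedVariables false
set_option linter.unusedSimpArgs false
set_option maxRecDepth 100000

namespace Cfsg.Agent.Lib.TF4.I2

open Cfsg DoubleCoset
open Cfsg.Lie Cfsg.Agent.Lib.Twisted
open Cfsg.Agent.Lib.Chevalley.Tbl.F4 (sys comm)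
open Cfsg.Agent.Lib.ChevBN.Elem Cfsg.Agent.Lib.ChevBN.Table Cfsg.Agent.Lib.ChevBN.Rel
open Cfsg.Agent.Lib.ChevBN.Opp Cfsg.Agent.Lib.ChevBN.Pair Cfsg.Agent.Lib.ChevBN.Torus Cfsg.Agent.Lib.ChevBN.Stmts
open Cfsg.Agent.Lib.ChevOrder.BNCount Cfsg.Agent.Lib.BNPair.Basic Cfsg.Agent.Lib.BNPair.Parabolic
open Cfsg.Agent.Lib.ChevBN.FastData (tbl_chevF4)
open Cfsg.Agent.Lib.ChevBN.Monomial Cfsg.Agent.Lib.ChevBN.Core
open Cfsg.Agent.Lib.TF4.T2 (posL pos_of posL_of)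

universe u

variable {K : Type u} [Field K] [CharP K 2]

set_option quotPrecheck false in
/-- The root elements. -/
local notation "Xr" => X (sys (F := _)).toAddRel

theorem lw_sq_chk : ∀ j, ∀ r < chevF4.nroots, fw (lw j ++ lw j) r = r := by decide +kernel

theorem act_n0' : ∀ j, ∀ r ∈ lr j, fw (lw j ++ lN0) r ∈ lr j := by decide +kernel

/-- The elements `n_j` are involutions. -/
theorem nw_mul_self (j : Fin 2) : nw j * nw j = (1 : GL chevF4.Idx K) := by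
  have h : prodA (sys (F := K)) (lw j ++ lw j) = prodA sys [] := by
    refine prodA_eq ?_ (by simp) ?_
    · intro i hi
      rcases List.mem_append.1 hi with h | h <;> exact lw_lt j i h
    · intro r hr
      exact lw_sq_chk j r hr
  rw [prodA_append, show prodA (sys (F := K)) [] = 1 by simp [prodA]] at h
  exact h

theorem nw_inv (j : Fin 2) : (nw j : GL chevF4.Idx K)⁻¹ = nw j := inv_eq_of_mul_eq_one_left (nw_mul_self j)

/-- The element `n_j` does not lie in `V B`. -/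
theorem uniq_left (j : Fin 2) {r₁ r₂ h₁ h₂ u₁ u₂ : GL chevF4.Idx K} (hr₁ : r₁ ∈ gen (sys (F := K)).toAddRel {r | r ∈ lr j})
    (hr₂ : r₂ ∈ gen (sys (F := K)).toAddRel {r | r ∈ lr j}) (hh₁ : h₁ ∈ chevF4.diagonalSubgroup K) (hh₂ : h₂ ∈ chevF4.diagonalSubgroup K)
    (hu₁ : u₁ ∈ chevF4.posUnipotent K) (hu₂ : u₂ ∈ chevF4.posUnipotent K)
    (e : r₁ * h₁ * nw j * u₁ = r₂ * h₂ * nw j * u₂) : r₁ = r₂ := by
  have hc : h₂⁻¹ * (r₂⁻¹ * r₁) * (h₂⁻¹)⁻¹ ∈ gen (sys (F := K)).toAddRel {r | r ∈ lr j} :=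
    H_conj_gen sys tbl_chevF4 (Subgroup.inv_mem _ hh₂) (fun r hr => ((closed_lr j).pos r hr).1)
      (Subgroup.mul_mem _ (Subgroup.inv_mem _ hr₂) hr₁)
  set c := h₂⁻¹ * (r₂⁻¹ * r₁) * (h₂⁻¹)⁻¹ with hcd
  have hV := nw_V j hc
  have hB : nw j * c * (nw j)⁻¹ ∈ chevF4.borelSubgroup K := by
    have hH : nw j * (h₂⁻¹ * h₁)⁻¹ * (nw j)⁻¹ ∈ chevF4.diagonalSubgroup K :=
      H_norm_N sys tbl_chevF4 (nw_N j) (Subgroup.inv_mem _ (Subgroup.mul_mem _ (Subgroup.inv_mem _ hh₂) hh₁))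
    have e1 : nw j * c * (nw j)⁻¹ = (u₂ * u₁⁻¹) * (nw j * (h₂⁻¹ * h₁)⁻¹ * (nw j)⁻¹) := by
      have e2 : r₁ * h₁ * nw j = r₂ * h₂ * nw j * (u₂ * u₁⁻¹) := by
        rw [← mul_assoc, ← e]
        group
      have e3 : c * (h₂⁻¹ * h₁) * nw j = nw j * (u₂ * u₁⁻¹) := by
        have : c * (h₂⁻¹ * h₁) * nw j = h₂⁻¹ * r₂⁻¹ * (r₁ * h₁ * nw j) := by
          rw [hcd]
          group
        rw [this, e2]
        group
      have hc2 : c = nw j * (u₂ * u₁⁻¹) * (nw j)⁻¹ * (h₂⁻¹ * h₁)⁻¹ := by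
        calc c = (c * (h₂⁻¹ * h₁) * nw j) * (nw j)⁻¹ * (h₂⁻¹ * h₁)⁻¹ := by group
          _ = _ := by rw [e3]
      calc nw j * c * (nw j)⁻¹ = nw j * (nw j * (u₂ * u₁⁻¹) * (nw j)⁻¹ * (h₂⁻¹ * h₁)⁻¹) * (nw j)⁻¹ := by rw [← hc2]
        _ = (nw j * nw j) * (u₂ * u₁⁻¹) * ((nw j)⁻¹ * (h₂⁻¹ * h₁)⁻¹ * (nw j)⁻¹) := by group
        _ = _ := by rw [nw_mul_self, one_mul, nw_inv]
    rw [e1]
    exact Subgroup.mul_mem _ (U_le_B sys tbl_chevF4 (Subgroup.mul_mem _ hu₂ (Subgroup.inv_mem _ hu₁))) (H_le_B sys tbl_chevF4 hH)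
  have h3 : nw j * c * (nw j)⁻¹ ∈ chevF4.borelSubgroup K ⊓ chevF4.negUnipotent K := ⟨hB, hV⟩
  rw [B_inf_V sys tbl_chevF4, Subgroup.mem_bot] at h3
  have h4 : c = 1 := conj_eq_one h3
  have h5 : r₂⁻¹ * r₁ = 1 := conj_eq_one h4
  exact (inv_mul_eq_one.1 h5).symm

/-- Elements of `V` with the same left factor are equal. -/
theorem inj_left (j : Fin 2) {y y' x₁ x₂ x₂' h h' : GL chevF4.Idx K} (hy : y ∈ chevF4.negUnipotent K) (hy' : y' ∈ chevF4.negUnipotent K)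
    (hx₂ : x₂ ∈ chevF4.posUnipotent K) (hx₂' : x₂' ∈ chevF4.posUnipotent K) (hh : h ∈ chevF4.diagonalSubgroup K)
    (hh' : h' ∈ chevF4.diagonalSubgroup K) (e : y = x₁ * h * nw j * x₂) (e' : y' = x₁ * h' * nw j * x₂') : y = y' := by
  have h1 : y⁻¹ * y' ∈ chevF4.borelSubgroup K ⊓ chevF4.negUnipotent K := by
    refine ⟨?_, Subgroup.mul_mem _ (Subgroup.inv_mem _ hy) hy'⟩
    have hH : (nw j)⁻¹ * (h⁻¹ * h') * ((nw j)⁻¹)⁻¹ ∈ chevF4.diagonalSubgroup K :=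
      H_norm_N sys tbl_chevF4 (Subgroup.inv_mem _ (nw_N j)) (Subgroup.mul_mem _ (Subgroup.inv_mem _ hh) hh')
    have e1 : y⁻¹ * y' = x₂⁻¹ * ((nw j)⁻¹ * (h⁻¹ * h') * ((nw j)⁻¹)⁻¹) * x₂' := by
      rw [e, e']
      group
    rw [e1]
    exact Subgroup.mul_mem _ (Subgroup.mul_mem _ (U_le_B sys tbl_chevF4 (Subgroup.inv_mem _ hx₂)) (H_le_B sys tbl_chevF4 hH))
      (U_le_B sys tbl_chevF4 hx₂')
  rw [B_inf_V sys tbl_chevF4, Subgroup.mem_bot] at h1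
  exact inv_mul_eq_one.1 h1

/-- An abstract form. -/
theorem bn_no_Bs {G : Type*} [Group G] {P : Cfsg.BNPair G} {n' s g b : G} (hn : n' ∈ P.N) (hs : s ∈ P.S) (hb : b ∈ P.B)
    (he : g = b * s) (hv : n' * g * n'⁻¹ ∈ P.B) : False := by
  have hsN : s ∈ P.N := S_mem_N hs
  have e₂ : n' * b = (n' * g * n'⁻¹) * (n' * s⁻¹) := by
    rw [he]
    group
  have h1 : n' * b ∈ C P n' := mem_C.2 ⟨1, P.B.one_mem, b, hb, by simp⟩
  have h2 : n' * b ∈ C P (n' * s⁻¹) := mem_C.2 ⟨_, hv, 1, P.B.one_mem, by rw [e₂]; simp⟩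
  have h3 := C_eq_of_mem_both h2 h1
  have h4 := (C_eq_iff (P.N.mul_mem hn (P.N.inv_mem hsN)) hn).1 h3
  apply s_not_mem_B hs
  have e₃ : (n' * s⁻¹)⁻¹ * n' = s := by group
  rwa [e₃] at h4

section
variable {φ : K →+* K} (hφ2 : ∀ t, (φ (φ t)) ^ 2 = t) {T : Tw (sys (F := K)).toAddRel} (hρ : T.ρ = ρ0)
  (hτ : ∀ r t, T.τ r t = lam r (φ t)) {e : ℕ} (hφ : ∀ t, φ t = t ^ e) [Finite K]
  {P : Cfsg.BNPair ↥(twistedF4 K e)}
  (hB : P.B = (chevF4.borelSubgroup K ⊓ twistedF4 K e).subgroupOf (twistedF4 K e))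
  (hN : P.N = (chevF4.monomialSubgroup K ⊓ twistedF4 K e).subgroupOf (twistedF4 K e))
  (hS : P.S = {g : ↥(twistedF4 K e) | (g : GL chevF4.Idx K) ∈ Set.range (nw (K := K))})

include hφ2 hρ hτ hφ hB hN hS

/-- An element of `V¹` does not lie in `B n_j`. -/
theorem not_V_Bs (j : Fin 2) {g b : ↥(twistedF4 K e)} (hV : (g : GL chevF4.Idx K) ∈ chevF4.negUnipotent K) (hb : b ∈ P.B)
    (he : g = b * eP (nw_mem hφ2 hρ hτ hφ) j) : False := by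
  have hnw := nw_mem (K := K) hφ2 hρ hτ hφ
  have hN0 := N0_mem (K := K) hφ2 hρ hτ hφ
  have hv : N0 * (g : GL chevF4.Idx K) * N0⁻¹ ∈ chevF4.posUnipotent K := (N0_swap.2 _).2 hV
  let n' : ↥(twistedF4 K e) := ⟨N0, hN0⟩
  have e1 : ((n' * g * n'⁻¹ : ↥(twistedF4 K e)) : GL chevF4.Idx K) = N0 * (g : GL chevF4.Idx K) * N0⁻¹ := by
    simp only [Subgroup.coe_mul, Subgroup.coe_inv]
    rfl
  have hn' : n' ∈ P.N := (memPN hN n').2 N0_N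
  have hv' : n' * g * n'⁻¹ ∈ P.B := by
    refine (memPB hB _).2 ?_
    rw [e1]
    exact U_le_B sys tbl_chevF4 hv
  exact bn_no_Bs hn' (eP_mem hnw hS j) hb he hv'

/-- The inversion in the rank one group. -/
theorem exists_y (j : Fin 2) {x : GL chevF4.Idx K} (hx : x ∈ YY T j) (hne : x ≠ 1) :
    ∃ b : ↥(twistedF4 K e), b ∈ P.B ∧ ∃ x' ∈ YY T j, nw j * x = (b : GL chevF4.Idx K) * (nw j * x' * (nw j)⁻¹) := by
  classical
  have hnw := nw_mem (K := K) hφ2 hρ hτ hφ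
  let A := {z : ↥(YY T j) // (z : GL chevF4.Idx K) ≠ 1}
  have hG : ∀ {z : GL chevF4.Idx K}, z ∈ YY T j → z ∈ twistedF4 K e := fun hz => fund_le hφ2 hρ hτ hφ j hz
  have hUU : ∀ {z : GL chevF4.Idx K}, z ∈ YY T j → z ∈ chevF4.posUnipotent K := fun hz => lr_le_U j hz.1
  have hex : ∀ z : A, ∃ x₁ ∈ YY T j, ∃ h ∈ chevF4.diagonalSubgroup K ⊓ T.Fx, ∃ x₂ : A,
      nw j * (z.1 : GL chevF4.Idx K) * (nw j)⁻¹ = x₁ * h * nw j * ((x₂.1 : ↥(YY T j)) : GL chevF4.Idx K) := by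
    intro z
    obtain ⟨x₁, h1, h, hh, x₂, h2, e1⟩ := rank1_fix hρ hτ j z.1.2 z.2
    refine ⟨x₁, h1, h, hh, ⟨⟨x₂, h2⟩, fun hx₂ => ?_⟩, e1⟩
    have hx₂' : x₂ = 1 := hx₂
    subst hx₂'
    rw [mul_one] at e1
    have hhG := H_Fx_le hφ2 hρ hτ hφ hh
    have hy : nw j * (z.1 : GL chevF4.Idx K) * (nw j)⁻¹ ∈ twistedF4 K e :=
      Subgroup.mul_mem _ (Subgroup.mul_mem _ (hnw j) (hG z.1.2)) (Subgroup.inv_mem _ (hnw j))
    refine not_V_Bs hφ2 hρ hτ hφ hB hN hS j (g := ⟨_, hy⟩) (b := ⟨x₁ * h, Subgroup.mul_mem _ (hG h1) hhG⟩)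
      (nw_V j z.1.2.1) ?_ (Subtype.ext e1)
    exact (memPB hB _).2 (Subgroup.mul_mem _ (U_le_B sys tbl_chevF4 (hUU h1)) (H_le_B sys tbl_chevF4 hh.1))
  choose x₁ hx₁ h hh x₂ he using hex
  have hinj : Function.Injective x₂ := by
    intro a b hab
    have h1 : (nw j * (a.1 : GL chevF4.Idx K) * (nw j)⁻¹) * (nw j * (b.1 : GL chevF4.Idx K) * (nw j)⁻¹)⁻¹ ∈
        chevF4.borelSubgroup K ⊓ chevF4.negUnipotent K := by
      refine ⟨?_, Subgroup.mul_mem _ (nw_V j a.1.2.1) (Subgroup.inv_mem _ (nw_V j b.1.2.1))⟩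
      have e1 : (nw j * (a.1 : GL chevF4.Idx K) * (nw j)⁻¹) * (nw j * (b.1 : GL chevF4.Idx K) * (nw j)⁻¹)⁻¹ =
          (x₁ a * h a) * (x₁ b * h b)⁻¹ := by
        rw [he a, he b, hab]
        group
      rw [e1]
      have hb : ∀ c : A, x₁ c * h c ∈ chevF4.borelSubgroup K := fun c =>
        Subgroup.mul_mem _ (U_le_B sys tbl_chevF4 (hUU (hx₁ c))) (H_le_B sys tbl_chevF4 (hh c).1)
      exact Subgroup.mul_mem _ (hb a) (Subgroup.inv_mem _ (hb b))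
    rw [B_inf_V sys tbl_chevF4, Subgroup.mem_bot] at h1
    have h2 := mul_inv_eq_one.1 h1
    have h3 : nw j * (a.1 : GL chevF4.Idx K) = nw j * (b.1 : GL chevF4.Idx K) := mul_right_cancel h2
    exact Subtype.ext (Subtype.ext (mul_left_cancel h3))
  have hsurj : Function.Surjective x₂ := Finite.injective_iff_surjective.1 hinj
  obtain ⟨z, hz⟩ := hsurj ⟨⟨x, hx⟩, hne⟩
  have e1 := he z
  rw [hz] at e1
  have hhG := H_Fx_le hφ2 hρ hτ hφ (hh z)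
  refine ⟨⟨(x₁ z * h z)⁻¹, Subgroup.inv_mem _ (Subgroup.mul_mem _ (hG (hx₁ z)) hhG)⟩, ?_, z.1, z.1.2, ?_⟩
  · refine (memPB hB _).2 (Subgroup.inv_mem _ ?_)
    exact Subgroup.mul_mem _ (U_le_B sys tbl_chevF4 (hUU (hx₁ z))) (H_le_B sys tbl_chevF4 (hh z).1)
  · show nw j * x = (x₁ z * h z)⁻¹ * (nw j * (z.1 : GL chevF4.Idx K) * (nw j)⁻¹)
    rw [e1]
    group

/-- The form of the elements of the double coset of `n_j`. -/
theorem C_form' {j : Fin 2} {g : ↥(twistedF4 K e)} (hg : g ∈ C P (eP (nw_mem hφ2 hρ hτ hφ) j)) :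
    ∃ b : ↥(twistedF4 K e), b ∈ P.B ∧ ∃ x ∈ YY T j, (g : GL chevF4.Idx K) = (b : GL chevF4.Idx K) * nw j * x := by
  have hnw := nw_mem (K := K) hφ2 hρ hτ hφ
  obtain ⟨b₁, hb₁, b₂, hb₂, e1⟩ := mem_C.1 hg
  have hb₂' : ((b₂⁻¹ : ↥(twistedF4 K e)) : GL chevF4.Idx K) ∈ chevF4.borelSubgroup K ⊓ twistedF4 K e :=
    ⟨(memPB hB _).1 (P.B.inv_mem hb₂), (b₂⁻¹).2⟩
  obtain ⟨u, hu, α, β, hα, hβ, e₁⟩ := B1_form hφ2 hρ hτ hφ hb₂'
  have hd : hh φ 0 α * hh φ 1 β ∈ chevF4.diagonalSubgroup K := Subgroup.mul_mem _ (hh_H 0 hα) (hh_H 1 hβ)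
  have hd1 : hh φ 0 α * hh φ 1 β ∈ twistedF4 K e := Subgroup.mul_mem _ (hh_mem hφ2 hρ hτ hφ 0 hα) (hh_mem hφ2 hρ hτ hφ 1 hβ)
  set d := hh φ 0 α * hh φ 1 β with hdd
  have e₂ : (b₂ : GL chevF4.Idx K) = d⁻¹ * u⁻¹ := by
    have : (b₂ : GL chevF4.Idx K) = (((b₂⁻¹ : ↥(twistedF4 K e)) : GL chevF4.Idx K))⁻¹ := by simp
    rw [this, e₁]
    group
  let Fd := fund (T := T) hφ2 hρ hτ hφ
  obtain ⟨a, ha, x, hx, e₃⟩ := Fd.decomp_fix j (u := u⁻¹) ⟨Subgroup.inv_mem _ hu.1, Subgroup.inv_mem _ hu.2⟩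
  have haG : a ∈ twistedF4 K e := U_Fx_le hφ2 hρ hτ hφ ⟨Fd.gen_Cp_le_U j ha.1, ha.2⟩
  have haU : nw j * a * (nw j)⁻¹ ∈ chevF4.posUnipotent K := by
    rw [posUnipotent_eq (sys (F := K)).toAddRel]
    refine conj_gen sys tbl_chevF4 (nw_N j) (Ψ := Fd.Cp j) (fun r hr => hr.1.1) ?_ ha.1
    intro r hr
    exact (Fd.act_comp j r hr.1 hr.2).1
  have hhH : nw j * d⁻¹ * (nw j)⁻¹ ∈ chevF4.diagonalSubgroup K := H_norm_N sys tbl_chevF4 (nw_N j) (Subgroup.inv_mem _ hd)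
  have hn := hnw j
  have hG3 : (nw j * d⁻¹ * (nw j)⁻¹) * (nw j * a * (nw j)⁻¹) ∈ twistedF4 K e :=
    Subgroup.mul_mem _ (Subgroup.mul_mem _ (Subgroup.mul_mem _ hn (Subgroup.inv_mem _ hd1)) (Subgroup.inv_mem _ hn))
      (Subgroup.mul_mem _ (Subgroup.mul_mem _ hn haG) (Subgroup.inv_mem _ hn))
  let b₃ : ↥(twistedF4 K e) := ⟨_, hG3⟩
  have hb₃ : b₃ ∈ P.B := (memPB hB _).2 (Subgroup.mul_mem _ (H_le_B sys tbl_chevF4 hhH) (U_le_B sys tbl_chevF4 haU))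
  refine ⟨b₁ * b₃, P.B.mul_mem hb₁ hb₃, x, hx, ?_⟩
  rw [e1]
  show (b₁ : GL chevF4.Idx K) * nw j * (b₂ : GL chevF4.Idx K) =
    (b₁ : GL chevF4.Idx K) * ((nw j * d⁻¹ * (nw j)⁻¹) * (nw j * a * (nw j)⁻¹)) * nw j * x
  rw [e₂, e₃]
  group

/-- `V¹ ∩ P_j`. -/
theorem neg_inter' (j : Fin 2) {g : ↥(twistedF4 K e)} (hV : (g : GL chevF4.Idx K) ∈ chevF4.negUnipotent K)
    (hg : g ∈ P.parabolic {eP (nw_mem hφ2 hρ hτ hφ) j}) : ∃ x ∈ YY T j, (g : GL chevF4.Idx K) = nw j * x * (nw j)⁻¹ := by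
  have hnw := nw_mem (K := K) hφ2 hρ hτ hφ
  rw [mem_parabolic_singleton (eP_mem hnw hS j)] at hg
  rcases hg with hg | hg
  · have h1 : (g : GL chevF4.Idx K) ∈ chevF4.borelSubgroup K ⊓ chevF4.negUnipotent K := ⟨(memPB hB _).1 hg, hV⟩
    rw [B_inf_V sys tbl_chevF4, Subgroup.mem_bot] at h1
    refine ⟨1, Subgroup.one_mem _, ?_⟩
    rw [h1]
    group
  · obtain ⟨b, hb, x, hx, e1⟩ := C_form' hφ2 hρ hτ hφ hB hN hS hg
    by_cases hne : x = 1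
    · exfalso
      subst hne
      rw [mul_one] at e1
      exact not_V_Bs hφ2 hρ hτ hφ hB hN hS j hV hb (Subtype.ext e1)
    · obtain ⟨b', hb', x', hx', e2⟩ := exists_y hφ2 hρ hτ hφ hB hN hS j hx hne
      refine ⟨x', hx', ?_⟩
      have h3 : (g : GL chevF4.Idx K) * (nw j * x' * (nw j)⁻¹)⁻¹ ∈ chevF4.borelSubgroup K ⊓ chevF4.negUnipotent K := by
        refine ⟨?_, Subgroup.mul_mem _ hV (Subgroup.inv_mem _ (nw_V j hx'.1))⟩
        have e3 : (g : GL chevF4.Idx K) * (nw j * x' * (nw j)⁻¹)⁻¹ = (b : GL chevF4.Idx K) * (b' : GL chevF4.Idx K) := by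
          rw [e1, mul_assoc (b : GL chevF4.Idx K) (nw j) x, e2]
          group
        rw [e3]
        exact Subgroup.mul_mem _ ((memPB hB _).1 hb) ((memPB hB _).1 hb')
      rw [B_inf_V sys tbl_chevF4, Subgroup.mem_bot] at h3
      exact mul_inv_eq_one.1 h3

/-- The converse of `nw_conj_N0`. -/
theorem nw_conj_N0' (j : Fin 2) {x : GL chevF4.Idx K} (hx : x ∈ YY T j) :
    ∃ z ∈ YY T j, N0 * x * N0⁻¹ = nw j * z * (nw j)⁻¹ := by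
  have hl : ∀ i ∈ lw j ++ lN0, i < chevF4.rank := by
    intro i hi
    rcases List.mem_append.1 hi with h | h
    · exact lw_lt j i h
    · exact lN0_lt i h
  have e1 : nw j * (N0 : GL chevF4.Idx K) = prodA sys (lw j ++ lN0) := (prodA_append _ _).symm
  have hnN := N0_Fx (K := K) (T := T) hρ hτ
  have hnw := nw_Fx (K := K) (T := T) hρ hτ j
  refine ⟨nw j * N0 * x * (nw j * N0)⁻¹, ⟨?_, ?_⟩, ?_⟩
  · rw [e1]
    refine conj_gen sys tbl_chevF4 (prodA_mem_N sys tbl_chevF4 hl) (fun r hr => ((closed_lr j).pos r hr).1) ?_ hx.1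
    intro r hr
    rw [pn_prodA sys tbl_chevF4 hl]
    exact act_n0' j r.val hr
  · exact Subgroup.mul_mem _ (Subgroup.mul_mem _ (Subgroup.mul_mem _ hnw hnN) hx.2)
      (Subgroup.inv_mem _ (Subgroup.mul_mem _ hnw hnN))
  · have h0 : nw j * (nw j : GL chevF4.Idx K) = 1 := nw_mul_self j
    rw [_root_.mul_inv_rev, nw_inv]
    calc N0 * x * N0⁻¹ = (nw j * nw j) * (N0 * x * N0⁻¹) * (nw j * nw j) := by rw [h0]; group
      _ = _ := by group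

/-- The conjugate of the element `N0` by a good automorphism. -/
theorem exists_H_N0 {θ : ↥(twistedF4 K e) ≃* ↥(twistedF4 K e)} (hU : PresUT θ) (hV : PresVT θ) :
    ∃ d : ↥(twistedF4 K e), (d : GL chevF4.Idx K) ∈ chevF4.diagonalSubgroup K ∧ θ ⟨N0, N0_mem hφ2 hρ hτ hφ⟩ = ⟨N0, N0_mem hφ2 hρ hτ hφ⟩ * d := by
  have hN0 := N0_mem (K := K) hφ2 hρ hτ hφ
  let n' : ↥(twistedF4 K e) := ⟨N0, hN0⟩
  have hni : ∀ y : ↥(twistedF4 K e), ((n'⁻¹ * y * n' : ↥(twistedF4 K e)) : GL chevF4.Idx K) = N0 * (y : GL chevF4.Idx K) * N0⁻¹ := by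
    intro y
    show (N0 : GL chevF4.Idx K)⁻¹ * (y : GL chevF4.Idx K) * N0 = _
    rw [N0_inv]
  refine ⟨n'⁻¹ * θ n', ?_, ?_⟩
  swap
  · show θ n' = n' * (n'⁻¹ * θ n')
    group
  refine mem_H_of_norm hφ2 hρ hτ hφ hB hN hS _ (fun u hu => ?_) (fun u hu => ?_)
  · have e1 : n'⁻¹ * θ n' * u * (n'⁻¹ * θ n')⁻¹ = n'⁻¹ * θ (n' * θ.symm u * n'⁻¹) * n' := by
      simp only [map_mul, map_inv, MulEquiv.apply_symm_apply]
      group
    rw [e1, hni]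
    refine (N0_swap.2 _).2 ((hV _).2 ?_)
    exact (N0_swap.1 _).2 ((presUT_symm hU u).2 hu)
  · have e1 : n'⁻¹ * θ n' * u * (n'⁻¹ * θ n')⁻¹ = n'⁻¹ * θ (n' * θ.symm u * n'⁻¹) * n' := by
      simp only [map_mul, map_inv, MulEquiv.apply_symm_apply]
      group
    rw [e1, hni]
    refine (N0_swap.1 _).2 ((hU _).2 ?_)
    exact (N0_swap.2 _).2 ((presVT_symm hV u).2 hu)

/-- Good automorphisms preserve the fundamental root groups. -/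
theorem pres_pos (j : Fin 2) {θ : ↥(twistedF4 K e) ≃* ↥(twistedF4 K e)} (hU : PresUT θ) (hV : PresVT θ) {x : ↥(twistedF4 K e)}
    (hx : (x : GL chevF4.Idx K) ∈ YY T j) : ((θ x : ↥(twistedF4 K e)) : GL chevF4.Idx K) ∈ YY T j := by
  have hnw := nw_mem (K := K) hφ2 hρ hτ hφ
  have hN0 := N0_mem (K := K) hφ2 hρ hτ hφ
  let n' : ↥(twistedF4 K e) := ⟨N0, hN0⟩
  obtain ⟨z, hz, e1⟩ := nw_conj_N0' hφ2 hρ hτ hφ hB hN hS j hx
  let y : ↥(twistedF4 K e) := n' * x * n'⁻¹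
  have hyc : (y : GL chevF4.Idx K) = N0 * (x : GL chevF4.Idx K) * N0⁻¹ := rfl
  have hyV : (y : GL chevF4.Idx K) ∈ chevF4.negUnipotent K := (N0_swap.1 _).2 (lr_le_U j hx.1)
  have hyP : y ∈ P.parabolic {eP hnw j} := by
    have hs : eP hnw j ∈ P.parabolic {eP hnw j} := closure_le_parabolic _ (Subgroup.subset_closure rfl)
    have hzG : z ∈ twistedF4 K e := fund_le hφ2 hρ hτ hφ j hz
    have e2 : y = eP hnw j * ⟨z, hzG⟩ * (eP hnw j)⁻¹ := Subtype.ext (by rw [hyc, e1]; rfl)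
    rw [e2]
    have hzB : (⟨z, hzG⟩ : ↥(twistedF4 K e)) ∈ P.B := (memPB hB _).2 (U_le_B sys tbl_chevF4 (lr_le_U j hz.1))
    exact Subgroup.mul_mem _ (Subgroup.mul_mem _ hs (B_le_parabolic _ hzB)) (Subgroup.inv_mem _ hs)
  have h1 := (par_inv hφ2 hρ hτ hφ hB hN hS hU j y).2 hyP
  obtain ⟨z', hz', e2⟩ := neg_inter' hφ2 hρ hτ hφ hB hN hS j ((hV y).2 hyV) h1
  obtain ⟨z'', hz'', e3⟩ := nw_conj_N0 hρ hτ j hz'
  obtain ⟨d, hd, e4⟩ := exists_H_N0 hφ2 hρ hτ hφ hB hN hS hU hV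
  have e5 : ((θ y : ↥(twistedF4 K e)) : GL chevF4.Idx K) = N0 * ((d : GL chevF4.Idx K) * ((θ x : ↥(twistedF4 K e)) : GL chevF4.Idx K) * (d : GL chevF4.Idx K)⁻¹) * N0⁻¹ := by
    have e6 : θ y = θ n' * θ x * (θ n')⁻¹ := by simp [y]
    rw [e6]
    have e7 : θ n' = n' * d := e4
    rw [e7]
    show (N0 * (d : GL chevF4.Idx K)) * ((θ x : ↥(twistedF4 K e)) : GL chevF4.Idx K) * (N0 * (d : GL chevF4.Idx K))⁻¹ = _
    group
  rw [e2, e3] at e5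
  have e6 : z'' = (d : GL chevF4.Idx K) * ((θ x : ↥(twistedF4 K e)) : GL chevF4.Idx K) * (d : GL chevF4.Idx K)⁻¹ :=
    mul_left_cancel (mul_right_cancel e5)
  have hdF : (d : GL chevF4.Idx K)⁻¹ ∈ chevF4.diagonalSubgroup K ⊓ T.Fx :=
    ⟨Subgroup.inv_mem _ hd, Subgroup.inv_mem _ (G1_le_Fx hφ2 hρ hτ hφ d.2)⟩
  have h7 := H_conj_YY hρ hτ j hdF hz''
  rw [e6] at h7
  have e8 : (d : GL chevF4.Idx K)⁻¹ * ((d : GL chevF4.Idx K) * ((θ x : ↥(twistedF4 K e)) : GL chevF4.Idx K) * (d : GL chevF4.Idx K)⁻¹) * ((d : GL chevF4.Idx K)⁻¹)⁻¹ =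
      ((θ x : ↥(twistedF4 K e)) : GL chevF4.Idx K) := by group
  rwa [e8] at h7

/-- Good automorphisms preserve the opposite root groups. -/
theorem pres_neg (j : Fin 2) {θ : ↥(twistedF4 K e) ≃* ↥(twistedF4 K e)} (hU : PresUT θ) (hV : PresVT θ) {x : ↥(twistedF4 K e)}
    (hx : (x : GL chevF4.Idx K) ∈ YY T j) :
    ∃ z ∈ YY T j, ((θ (⟨nw j, nw_mem hφ2 hρ hτ hφ j⟩ * x * ⟨nw j, nw_mem hφ2 hρ hτ hφ j⟩⁻¹) : ↥(twistedF4 K e)) : GL chevF4.Idx K) = nw j * z * (nw j)⁻¹ := by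
  have hnw := nw_mem (K := K) hφ2 hρ hτ hφ
  let y : ↥(twistedF4 K e) := ⟨nw j, hnw j⟩ * x * ⟨nw j, hnw j⟩⁻¹
  have hyc : (y : GL chevF4.Idx K) = nw j * (x : GL chevF4.Idx K) * (nw j)⁻¹ := rfl
  have hyV : (y : GL chevF4.Idx K) ∈ chevF4.negUnipotent K := nw_V j hx.1
  have hyP : y ∈ P.parabolic {eP hnw j} := by
    have hs : eP hnw j ∈ P.parabolic {eP hnw j} := closure_le_parabolic _ (Subgroup.subset_closure rfl)
    have e2 : y = eP hnw j * x * (eP hnw j)⁻¹ := rfl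
    rw [e2]
    have hzB : x ∈ P.B := (memPB hB _).2 (U_le_B sys tbl_chevF4 (lr_le_U j hx.1))
    exact Subgroup.mul_mem _ (Subgroup.mul_mem _ hs (B_le_parabolic _ hzB)) (Subgroup.inv_mem _ hs)
  have h1 := (par_inv hφ2 hρ hτ hφ hB hN hS hU j y).2 hyP
  exact neg_inter' hφ2 hρ hτ hφ hB hN hS j ((hV y).2 hyV) h1

end

end Cfsg.Agent.Lib.TF4.I2
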