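import Cfsg.Agent.Lib.TF4.I2Aut3
import Cfsg.Agent.Lib.Chevalley.AllEta

/-!
# Automorphisms of `²F₄(q)`: the rank one form on the first class, and the torus
-/

set_option autoImplicit false
set_option linter.unusedSectionVars false
set_option linter.unusedVariables false
set_option linter.unusedSimpArgs false
set_option maxRecDepth 100000

namespace Cfsg.Agent.Lib.TF4.I2

open Cfsg DoubleCoset
open Cfsg.Lie Cfsg.Agent.Lib.Twisted
open Cfsg.Agent.Lib.Chevalley
open Cfsg.Agent.Lib.Chevalley.SL2Hom (w h Rel)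
open Cfsg.Agent.Lib.Chevalley.Tbl.F4 (sys comm nform_check)
open Cfsg.Agent.Lib.ChevBN.Elem Cfsg.Agent.Lib.ChevBN.Table Cfsg.Agent.Lib.ChevBN.Rel
open Cfsg.Agent.Lib.ChevBN.Opp Cfsg.Agent.Lib.ChevBN.Pair Cfsg.Agent.Lib.ChevBN.Torus Cfsg.Agent.Lib.ChevBN.Stmts
open Cfsg.Agent.Lib.ChevOrder.BNCount Cfsg.Agent.Lib.BNPair.Basic Cfsg.Agent.Lib.BNPair.Parabolic
open Cfsg.Agent.Lib.ChevBN.FastData (tbl_chevF4)
open Cfsg.Agent.Lib.ChevBN.Monomial Cfsg.Agent.Lib.ChevBN.Core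
open Cfsg.Agent.Lib.TF4.T2 (posL pos_of posL_of)

universe u

variable {K : Type u} [Field K] [CharP K 2]

set_option quotPrecheck false in
/-- The root elements. -/
local notation "Xr" => X (sys (F := _)).toAddRel

section conj

variable {φ : K →+* K}

theorem Y1_hh0 {a : K} (ha : a ≠ 0) (t : K) : hh φ 0 a * Y1 φ t * (hh φ 0 a)⁻¹ = Y1 φ (a ^ 2 * t) :=
  P2_h (χ := a ^ 2) (hh0_val ha (by decide +kernel) (A := 2) (B := 0) (by decide +kernel) (by decide +kernel) (by simp))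
    (hh0_val ha (by decide +kernel) (A := 0) (B := 2) (by decide +kernel) (by decide +kernel) (by simp)) t

theorem yy_hh0 {a : K} (ha : a ≠ 0) (t : K) : hh φ 0 a * P2 φ 14 23 t * (hh φ 0 a)⁻¹ = P2 φ 14 23 ((a ^ 2)⁻¹ * t) :=
  P2_h (χ := (a ^ 2)⁻¹) (hh0_val ha (by decide +kernel) (A := -2) (B := 0) (by decide +kernel) (by decide +kernel)
      (by simp [zpow_neg]))
    (hh0_val ha (by decide +kernel) (A := 0) (B := -2) (by decide +kernel) (by decide +kernel) (by simp [zpow_neg])) t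

theorem Y1_hh1 [Finite K] {b : K} (hb : b ≠ 0) (t : K) : hh φ 1 b * Y1 φ t * (hh φ 1 b)⁻¹ = Y1 φ (b⁻¹ * t) :=
  P2_h (χ := b⁻¹) (hh1_val hb (by decide +kernel) (A := -1) (B := 0) (by decide +kernel) (by decide +kernel) (by simp))
    (hh1_val hb (by decide +kernel) (A := 0) (B := -1) (by decide +kernel) (by decide +kernel) (by simp)) t

theorem yy_hh1 [Finite K] {b : K} (hb : b ≠ 0) (t : K) : hh φ 1 b * P2 φ 14 23 t * (hh φ 1 b)⁻¹ = P2 φ 14 23 (b * t) :=
  P2_h (χ := b) (hh1_val hb (by decide +kernel) (A := 1) (B := 0) (by decide +kernel) (by decide +kernel) (by simp))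
    (hh1_val hb (by decide +kernel) (A := 0) (B := 1) (by decide +kernel) (by decide +kernel) (by simp)) t

/-- The action of a diagonal element on the second class. -/
theorem Ew_h (hφ2 : ∀ t, (φ (φ t)) ^ 2 = t) {d : GL chevF4.Idx K} {χ : K} (h27 : ∀ t, d * Xr 27 t * d⁻¹ = Xr 27 (φ χ * t))
    (h25 : ∀ t, d * Xr 25 t * d⁻¹ = Xr 25 (χ * t)) (h28 : ∀ t, d * Xr 28 t * d⁻¹ = Xr 28 (χ * φ χ * t))
    (h30 : ∀ t, d * Xr 30 t * d⁻¹ = Xr 30 (χ * (φ χ) ^ 2 * t)) (t u : K) :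
    d * Ew φ t u * d⁻¹ = Ew φ (χ * t) (χ * φ χ * u) := by
  unfold Ew Ec
  rw [conj_mul, conj_mul, conj_mul, h27, h25, h28, h30]
  have e1 : φ (χ * t) = φ χ * φ t := map_mul _ _ _
  have e2 : χ * φ χ * (φ t * t + u) = φ (χ * t) * (χ * t) + χ * φ χ * u := by
    rw [e1]
    ring
  have e3 : χ * (φ χ) ^ 2 * (φ u) ^ 2 = (φ (χ * φ χ * u)) ^ 2 := by
    rw [map_mul, map_mul, mul_pow, mul_pow, hφ2]
    ring
  rw [e1] at e2
  rw [e1, e2, e3]

theorem Ew_hh0 (hφ2 : ∀ t, (φ (φ t)) ^ 2 = t) {a : K} (ha : a ≠ 0) (t u : K) :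
    hh φ 0 a * Ew φ t u * (hh φ 0 a)⁻¹ = Ew φ (a⁻¹ * t) (a⁻¹ * φ a⁻¹ * u) := by
  have hs : φ a ≠ 0 := φ_ne ha
  refine Ew_h hφ2 (hh0_val ha (by decide +kernel) (A := -1) (B := 0) (by decide +kernel) (by decide +kernel) (by simp [map_inv₀]))
    (hh0_val ha (by decide +kernel) (A := 0) (B := -1) (by decide +kernel) (by decide +kernel) (by simp))
    (hh0_val ha (by decide +kernel) (A := -1) (B := -1) (by decide +kernel) (by decide +kernel) (by simp [map_inv₀, mul_comm]))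
    (hh0_val ha (by decide +kernel) (A := -2) (B := -1) (by decide +kernel) (by decide +kernel) (by simp [map_inv₀, zpow_neg, mul_comm])) t u

/-- The character on the second class of the second torus element. -/
noncomputable def chb (φ : K →+* K) (b : K) : K := ((φ b) ^ 2)⁻¹ * b ^ 2

theorem chb_phi (hφ2 : ∀ t, (φ (φ t)) ^ 2 = t) {b : K} (hb : b ≠ 0) : φ (chb φ b) = b⁻¹ * (φ b) ^ 2 := by
  unfold chb
  rw [map_mul, map_inv₀, map_pow, map_pow, hφ2]

theorem Ew_hh1 [Finite K] (hφ2 : ∀ t, (φ (φ t)) ^ 2 = t) {b : K} (hb : b ≠ 0) (t u : K) :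
    hh φ 1 b * Ew φ t u * (hh φ 1 b)⁻¹ = Ew φ (chb φ b * t) (chb φ b * φ (chb φ b) * u) := by
  have hs : φ b ≠ 0 := φ_ne hb
  refine Ew_h hφ2 (hh1_val hb (by decide +kernel) (A := 2) (B := -1) (by decide +kernel) (by decide +kernel) ?_)
    (hh1_val hb (by decide +kernel) (A := -2) (B := 2) (by decide +kernel) (by decide +kernel) ?_)
    (hh1_val hb (by decide +kernel) (A := 0) (B := 1) (by decide +kernel) (by decide +kernel) ?_)
    (hh1_val hb (by decide +kernel) (A := 2) (B := 0) (by decide +kernel) (by decide +kernel) ?_) t u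
  · rw [chb_phi hφ2 hb, zpow_neg_one, zpow_ofNat, mul_comm]
  · unfold chb
    rw [zpow_neg, zpow_ofNat, zpow_ofNat]
  · rw [chb_phi hφ2 hb]
    unfold chb
    simp only [zpow_zero, zpow_one, one_mul]
    field_simp
  · rw [chb_phi hφ2 hb]
    unfold chb
    simp only [zpow_zero, zpow_ofNat, mul_one]
    field_simp

end conj

/-! ### The rank one relations -/

/-- The parametrisation of the orbit. -/
noncomputable def eps (φ : K →+* K) (i : ℕ) : K →+* K := if i = 0 then φ else RingHom.id K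

theorem xL_eq (φ : K →+* K) (t : K) : xL (sys (F := K)).toAddRel [0, 3] (eps φ) t = Y1 φ t := by
  show xJ _ [0, 3] _ = P2 φ 33 24 t
  simp only [xJ_cons, xJ_nil, mul_one, simple_eq.1, simple_eq.2.2.2]
  simp [eps, P2]

theorem yL_eq (φ : K →+* K) (t : K) : yL (sys (F := K)).toAddRel [0, 3] (eps φ) t = P2 φ 14 23 t := by
  show yJ _ [0, 3] _ = P2 φ 14 23 t
  simp only [yJ_cons, yJ_nil, mul_one, simple_eq.1, simple_eq.2.2.2, neg_eq.1, neg_eq.2.1]
  simp [eps, P2]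

theorem hc_F4 : ∀ i < chevF4.rank, chevF4.cartan i (chevF4.simple i) = 2 := by decide +kernel

theorem hη_F4 : ∀ i < chevF4.rank, Cfsg.Agent.Lib.Chevalley.SysOf.etaOf Cfsg.Agent.Lib.Chevalley.Tbl.F4.wT i (chevF4.simple i) = -1 :=
  fun i hi => NForm.eta_simple_of_check _ nform_check hi

theorem orth_03 : OrthL (sys (F := K)).toAddRel [0, 3] := by
  have h1 : ∀ r ∈ ([33, 14] : List ℕ), ∀ s ∈ ([24, 23] : List ℕ), ∀ a b : K, Commute (Xr r a) (Xr s b) := by
    have hc : ∀ r ∈ ([33, 14] : List ℕ), ∀ s ∈ ([24, 23] : List ℕ), r < chevF4.nroots ∧ s < chevF4.nroots ∧ s ≠ r ∧ s ≠ chevF4.neg r ∧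
        (chevF4.commTerms r s).all (fun c => c.2.1 % 2 == 0) = true := by decide +kernel
    intro r hr s hs a b
    obtain ⟨h1, h2, h3, h4, h5⟩ := hc r hr s hs
    exact comm_even h1 h2 h3 h4 h5 a b
  have h33 : chevF4.simple 0 = 33 := simple_eq.1
  have h24 : chevF4.simple 3 = 24 := simple_eq.2.2.2
  have ok : OkP (sys (F := K)).toAddRel 0 3 := by
    intro a b
    rw [h33, h24, neg_eq.1, neg_eq.2.1]
    exact ⟨h1 33 (by simp) 24 (by simp) a b, h1 33 (by simp) 23 (by simp) a b, h1 14 (by simp) 24 (by simp) a b,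
      h1 14 (by simp) 23 (by simp) a b⟩
  intro i hi j hj hne
  simp only [List.mem_cons, List.not_mem_nil, or_false] at hi hj
  rcases hi with rfl | rfl <;> rcases hj with rfl | rfl
  · exact absurd rfl hne
  · exact ok
  · exact ok.symm
  · exact absurd rfl hne

theorem rel_03 (φ : K →+* K) [Finite K] : Rel (xL (sys (F := K)).toAddRel [0, 3] (eps φ)) (yL (sys (F := K)).toAddRel [0, 3] (eps φ)) :=
  rel_orbit sys tbl_chevF4 hc_F4 hη_F4 (by decide +kernel) (by decide) orth_03 (eps φ)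

theorem h_eq_hh (φ : K →+* K) [Finite K] {t : K} (ht : t ≠ 0) :
    h (xL (sys (F := K)).toAddRel [0, 3] (eps φ)) (yL (sys (F := K)).toAddRel [0, 3] (eps φ)) t = hh φ 0 t := by
  rw [h_eq_torJ (by decide) orth_03 (eps φ) ht]
  show torJ _ [0, 3] _ = hh φ 0 t
  simp only [torJ_cons, torJ_nil, mul_one, simple_eq.1, simple_eq.2.2.2]
  simp [eps]
  rfl

end Cfsg.Agent.Lib.TF4.I2
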