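import Cfsg.Agent.Lib.TF4.I2Aut4

/-!
# Automorphisms of `²F₄(q)`: the second class and the torus
-/

set_option autoImplicit false
set_option linter.unusedSectionVars false
set_option linter.unusedVariables false
set_option linter.unusedSimpArgs false
set_option maxRecDepth 100000

namespace Cfsg.Agent.Lib.TF4.I2

open Cfsg DoubleCoset
open Cfsg.Lie Cfsg.Agent.Lib.Twisted
open Cfsg.Agent.Lib.Chevalley
open Cfsg.Agent.Lib.Chevalley.SL2Hom (Rel)
open Cfsg.Agent.Lib.Chevalley.Tbl.F4 (sys comm nform_check)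
open Cfsg.Agent.Lib.ChevBN.Elem Cfsg.Agent.Lib.ChevBN.Table Cfsg.Agent.Lib.ChevBN.Rel
open Cfsg.Agent.Lib.ChevBN.Opp Cfsg.Agent.Lib.ChevBN.Pair Cfsg.Agent.Lib.ChevBN.Torus Cfsg.Agent.Lib.ChevBN.Stmts
open Cfsg.Agent.Lib.ChevOrder.BNCount Cfsg.Agent.Lib.BNPair.Basic Cfsg.Agent.Lib.BNPair.Parabolic
open Cfsg.Agent.Lib.ChevBN.FastData (tbl_chevF4)
open Cfsg.Agent.Lib.ChevBN.Monomial Cfsg.Agent.Lib.ChevBN.Core
open Cfsg.Agent.Lib.TF4.T2 (posL pos_of posL_of)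

universe u

variable {K : Type u} [Field K] [CharP K 2]

section alg
variable {φ : K →+* K} (hφ2 : ∀ t, (φ (φ t)) ^ 2 = t)

include hφ2

theorem phi_fix_of {a : K} (ha : φ a = a) : a = 0 ∨ a = 1 := by
  have h1 : (φ (φ a)) ^ 2 = a := hφ2 a
  rw [ha, ha] at h1
  by_cases h0 : a = 0
  · exact Or.inl h0
  · right
    have h2 : a * (a - 1) = 0 := by linear_combination h1
    rcases mul_eq_zero.1 h2 with h | h
    · exact absurd h h0
    · exact sub_eq_zero.1 h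

theorem M_ne_one {a : K} (h0 : a ≠ 0) (h1 : a ≠ 1) : a * φ a ≠ 1 := by
  intro h
  have e1 : φ a = a⁻¹ := eq_inv_of_mul_eq_one_right h
  have e2 : φ (φ a) = a := by rw [e1, map_inv₀, e1, inv_inv]
  have e3 := hφ2 a
  rw [e2] at e3
  have h2 : a * (a - 1) = 0 := by linear_combination e3
  rcases mul_eq_zero.1 h2 with h3 | h3
  · exact h0 h3
  · exact h1 (sub_eq_zero.1 h3)

theorem M_surj (w : K) : ∃ t, t * φ t = w := by
  by_cases hw : w = 0
  · exact ⟨0, by simp [hw]⟩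
  · have h1 : φ w ≠ 0 := φ_ne hw
    refine ⟨(w * (φ w)⁻¹) ^ 2, ?_⟩
    rw [map_pow, map_mul, map_inv₀, mul_pow, mul_pow, inv_pow, inv_pow, hφ2]
    field_simp

/-- The shape of a good self-map of the second class. -/
theorem R8_abstract (hne : ∃ a : K, a ≠ 0 ∧ a ≠ 1) (F D : K → K → K)
    (hl1 : ∀ t u t' u', F (t + t') (u + u' + φ t * t') = F t u + F t' u')
    (hl2 : ∀ t u t' u', D (t + t') (u + u' + φ t * t') = D t u + D t' u' + φ (F t u) * F t' u')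
    (he1 : ∀ a t u, a ≠ 0 → F (a * t) (a * φ a * u) = a * F t u)
    (he2 : ∀ a t u, a ≠ 0 → D (a * t) (a * φ a * u) = a * φ a * D t u) :
    ∀ t u, F t u = F 1 0 * t ∧ D t u = F 1 0 * φ (F 1 0) * u := by
  have h2 : (2 : K) = 0 := CharTwo.two_eq_zero
  have addself : ∀ x : K, x + x = 0 := fun x => by linear_combination x * h2
  have F00 : F 0 0 = 0 := by
    have := hl1 0 0 0 0
    simp only [add_zero, map_zero, zero_mul] at this
    linear_combination -this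
  have D00 : D 0 0 = 0 := by
    have := hl2 0 0 0 0
    simp only [add_zero, map_zero, zero_mul, F00, mul_zero] at this
    linear_combination -this
  set c := F 1 0 with hc
  have hf : ∀ t, F t 0 = c * t := by
    intro t
    by_cases ht : t = 0
    · rw [ht, F00, mul_zero]
    · have := he1 t 1 0 ht
      simp only [mul_one, mul_zero] at this
      rw [this, mul_comm]
  set δ := D 1 0 with hδ
  have hd : ∀ t, D t 0 = t * φ t * δ := by
    intro t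
    by_cases ht : t = 0
    · rw [ht, D00, zero_mul, zero_mul]
    · have := he2 t 1 0 ht
      simp only [mul_one, mul_zero] at this
      rw [this]
  -- squares
  have hsq : ∀ t, F 0 (t * φ t) = 0 ∧ D 0 (t * φ t) = c * φ c * (t * φ t) := by
    intro t
    have e1 := hl1 t 0 t 0
    have e2 := hl2 t 0 t 0
    rw [addself t, zero_add, zero_add, mul_comm (φ t) t, hf, addself] at e1
    rw [addself t, zero_add, zero_add, mul_comm (φ t) t, hf, hd, addself, zero_add, map_mul] at e2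
    refine ⟨e1, ?_⟩
    rw [e2]
    ring
  have h0 : ∀ w, F 0 w = 0 ∧ D 0 w = c * φ c * w := by
    intro w
    obtain ⟨t, rfl⟩ := M_surj hφ2 w
    exact hsq t
  have hF : ∀ t u, F t u = c * t ∧ D t u = t * φ t * δ + c * φ c * u := by
    intro t u
    have e1 := hl1 t 0 0 u
    have e2 := hl2 t 0 0 u
    simp only [add_zero, zero_add, mul_zero, (h0 u).1, hf, hd, (h0 u).2] at e1 e2
    exact ⟨e1, e2⟩
  -- additivity
  have hδ0 : δ = 0 := by
    obtain ⟨a, ha0, ha1⟩ := hne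
    have e2 := hl2 a 0 1 0
    rw [(hF _ _).2, (hF _ _).2, (hF _ _).2, (hF _ _).1, (hF _ _).1] at e2
    have e3 : (a + φ a) * δ = 0 := by
      simp only [map_add, map_mul, map_one, add_zero, map_zero, mul_zero, mul_one, zero_add, one_mul] at e2
      linear_combination e2
    rcases mul_eq_zero.1 e3 with e4 | e4
    · exfalso
      have e5 : φ a = a := by linear_combination e4 - a * h2
      rcases phi_fix_of hφ2 e5 with e6 | e6
      · exact ha0 e6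
      · exact ha1 e6
    · exact e4
  intro t u
  rw [(hF t u).1, (hF t u).2, hδ0]
  exact ⟨rfl, by ring⟩

/-- The torus normalisation. -/
theorem norm_char {c : K} (hc : c ≠ 0) :
    let α := c ^ 3 * (φ c) ^ 4
    α ≠ 0 ∧ α⁻¹ * chb φ (α ^ 2) = c := by
  intro α
  have hc' : φ c ≠ 0 := φ_ne hc
  have hα : α ≠ 0 := mul_ne_zero (pow_ne_zero _ hc) (pow_ne_zero _ hc')
  refine ⟨hα, ?_⟩
  have e1 : φ α = (φ c) ^ 3 * c ^ 2 := by
    show φ (c ^ 3 * (φ c) ^ 4) = _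
    rw [map_mul, map_pow, map_pow]
    have : (φ (φ c)) ^ 4 = ((φ (φ c)) ^ 2) ^ 2 := by ring
    rw [this, hφ2]
  unfold chb
  rw [map_pow, e1]
  show (c ^ 3 * (φ c) ^ 4)⁻¹ * ((((((φ c) ^ 3 * c ^ 2) ^ 2) ^ 2)⁻¹ * ((c ^ 3 * (φ c) ^ 4) ^ 2) ^ 2)) = c
  field_simp

/-- The rigidity of the torus. -/
theorem torus_alg {a b a' b' : K} (ha : a ≠ 0) (hb : b ≠ 0) (ha' : a' ≠ 0) (hb' : b' ≠ 0)
    (h1 : a ^ 2 * b⁻¹ = a' ^ 2 * b'⁻¹) (h2 : a⁻¹ * chb φ b = a'⁻¹ * chb φ b') : a = a' ∧ b = b' := by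
  set u := a' * a⁻¹ with hu
  have hu0 : u ≠ 0 := mul_ne_zero ha' (inv_ne_zero ha)
  have ea : a' = u * a := by rw [hu]; field_simp
  have eb : b' = u ^ 2 * b := by
    rw [ea] at h1
    field_simp at h1
    rw [h1]
    ring
  have hφb : φ b ≠ 0 := φ_ne hb
  have hφu : φ u ≠ 0 := φ_ne hu0
  have e1 : (φ u) ^ 4 = u ^ 3 := by
    rw [ea, eb] at h2
    unfold chb at h2
    rw [map_mul, map_pow] at h2
    field_simp at h2
    exact h2
  have e2 : u ^ 2 = (φ u) ^ 3 := by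
    have h3 := congrArg φ e1
    rw [map_pow, map_pow] at h3
    have h4 : (φ (φ u)) ^ 4 = ((φ (φ u)) ^ 2) ^ 2 := by ring
    rw [h4, hφ2] at h3
    exact h3
  have e3 : u = 1 := by
    have h5 : u ^ 9 = u ^ 8 := by
      calc u ^ 9 = (u ^ 3) ^ 3 := by ring
        _ = ((φ u) ^ 4) ^ 3 := by rw [e1]
        _ = ((φ u) ^ 3) ^ 4 := by ring
        _ = (u ^ 2) ^ 4 := by rw [e2]
        _ = u ^ 8 := by ring
    have h6 : u ^ 8 * u = u ^ 8 * 1 := by linear_combination h5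
    exact mul_left_cancel₀ (pow_ne_zero 8 hu0) h6
  rw [e3] at ea eb
  exact ⟨by rw [ea, one_mul], by rw [eb]; ring⟩

end alg

theorem Ew_inj {φ : K →+* K} [Finite K] {t u t' u' : K} (h : Ew φ t u = Ew φ t' u') : t = t' ∧ u = u' := by
  unfold Ew at h
  obtain ⟨-, h2, h3, -⟩ := Ec_inj h
  subst h2
  exact ⟨rfl, add_left_cancel h3⟩

theorem Pw_inj {φ : K →+* K} [Finite K] {t t' : K} (h : Pw φ t = Pw φ t') : t = t' := by
  unfold Pw at h
  exact (Pc_inj h).2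

section main
variable {φ : K →+* K} (hφ2 : ∀ t, (φ (φ t)) ^ 2 = t) {T : Tw (sys (F := K)).toAddRel} (hρ : T.ρ = ρ0)
  (hτ : ∀ r t, T.τ r t = lam r (φ t)) {e : ℕ} (hφ : ∀ t, φ t = t ^ e) [Finite K]
  {P : Cfsg.BNPair ↥(twistedF4 K e)}
  (hB : P.B = (chevF4.borelSubgroup K ⊓ twistedF4 K e).subgroupOf (twistedF4 K e))
  (hN : P.N = (chevF4.monomialSubgroup K ⊓ twistedF4 K e).subgroupOf (twistedF4 K e))
  (hS : P.S = {g : ↥(twistedF4 K e) | (g : GL chevF4.Idx K) ∈ Set.range (nw (K := K))})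

/-- The first class. -/
noncomputable def xG (hφ : ∀ t, φ t = t ^ e) (t : K) : ↥(twistedF4 K e) := ⟨Pw φ t, Pw_mem hφ t⟩
/-- The opposite of the first class. -/
noncomputable def yG (hφ : ∀ t, φ t = t ^ e) (t : K) : ↥(twistedF4 K e) := ⟨N0 * Pw φ t * N0⁻¹, Pwn_mem hφ t⟩
/-- The second class. -/
noncomputable def eG (hφ : ∀ t, φ t = t ^ e) (t u : K) : ↥(twistedF4 K e) := ⟨Ew φ t u, Ew_mem hφ t u⟩
/-- The opposite of the second class. -/
noncomputable def fG (hφ : ∀ t, φ t = t ^ e) (t u : K) : ↥(twistedF4 K e) := ⟨N0 * Ew φ t u * N0⁻¹, Ewn_mem hφ t u⟩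

omit [Finite K] in
theorem yG_coe (t : K) : ((yG hφ t : ↥(twistedF4 K e)) : GL chevF4.Idx K) = P2 φ 14 23 t := N0_Pc _ _

omit [Finite K] in
theorem xG_coe (t : K) : ((xG hφ t : ↥(twistedF4 K e)) : GL chevF4.Idx K) = Y1 φ t := rfl

theorem rel_G : Rel (xG hφ) (yG hφ) :=
  Cfsg.Agent.Lib.ChevAut.rel_of_injective (twistedF4 K e).subtype (Subgroup.subtype_injective _)
    (fun t => (xG_coe hφ t).trans (xL_eq φ t).symm) (fun t => (yG_coe hφ t).trans (yL_eq φ t).symm) (rel_03 φ)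

theorem xG_inj {a b : K} (h : xG hφ a = xG hφ b) : a = b := Pw_inj (congrArg Subtype.val h)

theorem yG_inj {a b : K} (h : yG hφ a = yG hφ b) : a = b := by
  have h1 : N0 * Pw φ a * N0⁻¹ = N0 * Pw φ b * N0⁻¹ := congrArg Subtype.val h
  exact Pw_inj (mul_left_cancel (mul_right_cancel h1))

theorem xy_sep {τ v : K} (h : xG hφ τ = yG hφ v) : τ = 0 := by
  have h1 : Y1 φ τ = P2 φ 14 23 v := by
    rw [← xG_coe hφ, ← yG_coe hφ, h]
  have h2 : Y1 φ τ ∈ chevF4.posUnipotent K := P2_U φ (by decide +kernel) (by decide +kernel) τ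
  have h3 : Y1 φ τ ∈ chevF4.negUnipotent K := by
    rw [h1]
    exact P2_V φ (by decide +kernel) (by decide +kernel) v
  have h4 := UV_one h2 h3
  have h5 : Pw φ τ = Pw φ 0 := by
    rw [Pw_zero]
    exact h4
  exact Pw_inj h5

include hφ2 hρ hτ hφ hB hN hS

/-- The rank one form of a good automorphism. -/
theorem rank1_aut {θ : ↥(twistedF4 K e) ≃* ↥(twistedF4 K e)} (hU : PresUT θ) (hV : PresVT θ) :
    ∃ (c : Kˣ) (σ : K ≃+* K), ∀ t, θ (xG hφ t) = xG hφ ((c : K) * σ t) ∧ θ (yG hφ t) = yG hφ (((c⁻¹ : Kˣ) : K) * σ t) := by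
  have hN0 := N0_mem (K := K) hφ2 hρ hτ hφ
  let n' : ↥(twistedF4 K e) := ⟨N0, hN0⟩
  have hxY : ∀ x : ↥(twistedF4 K e), (x : GL chevF4.Idx K) ∈ YY T 0 → ∃ u, x = xG hφ u := by
    intro x hx
    obtain ⟨u, hu⟩ := Pw_of_fix hφ2 hρ hτ hx
    exact ⟨u, Subtype.ext hu⟩
  have hY : ∀ t, ((xG hφ t : ↥(twistedF4 K e)) : GL chevF4.Idx K) ∈ YY T 0 := fun t =>
    ⟨Pc_mem _ _, Pw_fix hφ2 hρ hτ t⟩
  refine Cfsg.Agent.Lib.Twisted.rank1_form (rel_G hφ) (fun τ v h => xy_sep hφ h) (fun a b h => xG_inj hφ h)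
    (fun a b h => yG_inj hφ h) θ (fun t => hxY _ (pres_pos hφ2 hρ hτ hφ hB hN hS 0 hU hV (hY t))) (fun t => ?_)
  obtain ⟨d, hd, e4⟩ := exists_H_N0 hφ2 hρ hτ hφ hB hN hS hU hV
  have e1 : yG hφ t = n' * xG hφ t * n'⁻¹ := rfl
  have e7 : θ n' = n' * d := e4
  have hdF : (d : GL chevF4.Idx K) ∈ chevF4.diagonalSubgroup K ⊓ T.Fx := ⟨hd, G1_le_Fx hφ2 hρ hτ hφ d.2⟩
  have h1 := pres_pos hφ2 hρ hτ hφ hB hN hS 0 hU hV (hY t)
  have h2 := H_conj_YY hρ hτ 0 hdF h1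
  have h3 : ((d * θ (xG hφ t) * d⁻¹ : ↥(twistedF4 K e)) : GL chevF4.Idx K) ∈ YY T 0 := h2
  obtain ⟨u, hu⟩ := hxY _ h3
  refine ⟨u, ?_⟩
  have e2 : yG hφ u = n' * xG hφ u * n'⁻¹ := rfl
  rw [e1, e2, ← hu, map_mul, map_mul, map_inv, e7]
  group

end main

end Cfsg.Agent.Lib.TF4.I2
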