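import Cfsg.Agent.Lib.TF4.I2Aut5

/-!
# Automorphisms of `²F₄(q)`: fixing the second class
-/

set_option autoImplicit false
set_option linter.unusedSectionVars false
set_option linter.unusedVariables false
set_option linter.unusedSimpArgs false
set_option maxRecDepth 100000

namespace Cfsg.Agent.Lib.TF4.I2

open Cfsg DoubleCoset
open Cfsg.Lie Cfsg.Agent.Lib.Twisted
open Cfsg.Agent.Lib.Chevalley
open Cfsg.Agent.Lib.Chevalley.SL2Hom (Rel)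
open Cfsg.Agent.Lib.Chevalley.Tbl.F4 (sys comm nform_check)
open Cfsg.Agent.Lib.ChevBN.Elem Cfsg.Agent.Lib.ChevBN.Table Cfsg.Agent.Lib.ChevBN.Rel
open Cfsg.Agent.Lib.ChevBN.Opp Cfsg.Agent.Lib.ChevBN.Pair Cfsg.Agent.Lib.ChevBN.Torus Cfsg.Agent.Lib.ChevBN.Stmts
open Cfsg.Agent.Lib.ChevOrder.BNCount Cfsg.Agent.Lib.BNPair.Basic Cfsg.Agent.Lib.BNPair.Parabolic
open Cfsg.Agent.Lib.ChevBN.FastData (tbl_chevF4)
open Cfsg.Agent.Lib.ChevBN.Monomial Cfsg.Agent.Lib.ChevBN.Core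
open Cfsg.Agent.Lib.TF4.T2 (posL pos_of posL_of)

universe u

variable {K : Type u} [Field K] [CharP K 2]

section main
variable {φ : K →+* K} (hφ2 : ∀ t, (φ (φ t)) ^ 2 = t) {T : Tw (sys (F := K)).toAddRel} (hρ : T.ρ = ρ0)
  (hτ : ∀ r t, T.τ r t = lam r (φ t)) {e : ℕ} (hφ : ∀ t, φ t = t ^ e) [Finite K]
  {P : Cfsg.BNPair ↥(twistedF4 K e)}
  (hB : P.B = (chevF4.borelSubgroup K ⊓ twistedF4 K e).subgroupOf (twistedF4 K e))
  (hN : P.N = (chevF4.monomialSubgroup K ⊓ twistedF4 K e).subgroupOf (twistedF4 K e))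
  (hS : P.S = {g : ↥(twistedF4 K e) | (g : GL chevF4.Idx K) ∈ Set.range (nw (K := K))})

/-- The torus element as an element of the group. -/
noncomputable def tG (hφ2 : ∀ t, (φ (φ t)) ^ 2 = t) (hρ : T.ρ = ρ0) (hτ : ∀ r t, T.τ r t = lam r (φ t)) (hφ : ∀ t, φ t = t ^ e)
    (j : Fin 2) {a : K} (ha : a ≠ 0) : ↥(twistedF4 K e) := ⟨hh φ j a, hh_mem hφ2 hρ hτ hφ j ha⟩

/-- An automorphism fixing the first class and its opposite fixes the first torus element. -/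
theorem fix_hh0 {θ : ↥(twistedF4 K e) ≃* ↥(twistedF4 K e)} (hx : ∀ t, θ (xG hφ t) = xG hφ t) (hy : ∀ t, θ (yG hφ t) = yG hφ t)
    {a : K} (ha : a ≠ 0) : θ (tG hφ2 hρ hτ hφ 0 ha) = tG hφ2 hρ hτ hφ 0 ha := by
  have e1 : tG hφ2 hρ hτ hφ 0 ha = SL2Hom.h (xG hφ) (yG hφ) a := by
    apply Subtype.ext
    show hh φ 0 a = _
    rw [← h_eq_hh φ ha]
    simp only [SL2Hom.h, SL2Hom.w, Subgroup.coe_mul, xG_coe, yG_coe, xL_eq, yL_eq]
  rw [e1]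
  simp only [SL2Hom.h, SL2Hom.w, map_mul, hx, hy]

section fixE
variable {θ : ↥(twistedF4 K e) ≃* ↥(twistedF4 K e)} (hU : PresUT θ) (hV : PresVT θ)
  (hx : ∀ t, θ (xG hφ t) = xG hφ t) (hy : ∀ t, θ (yG hφ t) = yG hφ t) (hne : ∃ a : K, a ≠ 0 ∧ a ≠ 1)

include hφ2 hρ hτ hφ hB hN hS hU hV hx hy hne

/-- The action on the second class. -/
theorem fix_E : ∃ c : K, c ≠ 0 ∧ ∀ t u, θ (eG hφ t u) = eG hφ (c * t) (c * φ c * u) := by
  have hY : ∀ t u, ((eG hφ t u : ↥(twistedF4 K e)) : GL chevF4.Idx K) ∈ YY T 1 := fun t u =>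
    ⟨Ec_mem _ _ _ _, Ew_fix hφ2 hρ hτ t u⟩
  have hex : ∀ t u, ∃ F D, θ (eG hφ t u) = eG hφ F D := by
    intro t u
    obtain ⟨F, D, h⟩ := Ew_of_fix hφ2 hρ hτ (pres_pos hφ2 hρ hτ hφ hB hN hS 1 hU hV (hY t u))
    exact ⟨F, D, Subtype.ext h⟩
  choose F D hFD using hex
  have hinj : ∀ {a b a' b' : K}, eG hφ a b = eG hφ a' b' → a = a' ∧ b = b' := fun h =>
    Ew_inj (congrArg Subtype.val h)
  have hmul : ∀ t u t' u', eG hφ t u * eG hφ t' u' = eG hφ (t + t') (u + u' + φ t * t') := by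
    intro t u t' u'
    exact Subtype.ext (Ew_mul hφ2 t u t' u')
  have hlaw : ∀ t u t' u', F (t + t') (u + u' + φ t * t') = F t u + F t' u' ∧
      D (t + t') (u + u' + φ t * t') = D t u + D t' u' + φ (F t u) * F t' u' := by
    intro t u t' u'
    have e1 := congrArg θ (hmul t u t' u')
    rw [map_mul, hFD, hFD, hFD, hmul] at e1
    obtain ⟨h1, h2⟩ := hinj e1
    exact ⟨h1.symm, h2.symm⟩
  have hconj : ∀ a t u, a ≠ 0 → F (a * t) (a * φ a * u) = a * F t u ∧ D (a * t) (a * φ a * u) = a * φ a * D t u := by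
    intro a t u ha
    have ha' : a⁻¹ ≠ 0 := inv_ne_zero ha
    have hc : ∀ t u, tG hφ2 hρ hτ hφ 0 ha' * eG hφ t u * (tG hφ2 hρ hτ hφ 0 ha')⁻¹ = eG hφ (a * t) (a * φ a * u) := by
      intro t u
      apply Subtype.ext
      show hh φ 0 a⁻¹ * Ew φ t u * (hh φ 0 a⁻¹)⁻¹ = Ew φ (a * t) (a * φ a * u)
      rw [Ew_hh0 hφ2 ha', inv_inv]
    have e1 := congrArg θ (hc t u)
    rw [map_mul, map_mul, map_inv, fix_hh0 hφ2 hρ hτ hφ hx hy ha', hFD, hFD, hc] at e1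
    obtain ⟨h1, h2⟩ := hinj e1
    exact ⟨h1.symm, h2.symm⟩
  have hR := R8_abstract hφ2 hne F D (fun t u t' u' => (hlaw t u t' u').1) (fun t u t' u' => (hlaw t u t' u').2)
    (fun a t u ha => (hconj a t u ha).1) (fun a t u ha => (hconj a t u ha).2)
  refine ⟨F 1 0, ?_, ?_⟩
  · intro hc
    have h1 := hFD 1 0
    rw [(hR 1 0).1, (hR 1 0).2, hc, zero_mul, zero_mul, zero_mul] at h1
    have e2 : eG hφ (0 : K) 0 = 1 := Subtype.ext Ew_zero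
    rw [e2] at h1
    have h3 : eG hφ (1 : K) 0 = 1 := (map_eq_one_iff θ θ.injective).1 h1
    rw [← e2] at h3
    exact one_ne_zero (hinj h3).1
  · intro t u
    rw [hFD, (hR t u).1, (hR t u).2]

end fixE

/-! ### Normalising by the torus -/

omit [Finite K] in
theorem Y1_pair [Finite K] {a b : K} (ha : a ≠ 0) (hb : b ≠ 0) (t : K) :
    (hh φ 0 a * hh φ 1 b) * Y1 φ t * (hh φ 0 a * hh φ 1 b)⁻¹ = Y1 φ (a ^ 2 * (b⁻¹ * t)) := by
  have e1 : (hh φ 0 a * hh φ 1 b) * Y1 φ t * (hh φ 0 a * hh φ 1 b)⁻¹ =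
      hh φ 0 a * (hh φ 1 b * Y1 φ t * (hh φ 1 b)⁻¹) * (hh φ 0 a)⁻¹ := by group
  rw [e1, Y1_hh1 hb, Y1_hh0 ha]

omit [Finite K] in
theorem yy_pair [Finite K] {a b : K} (ha : a ≠ 0) (hb : b ≠ 0) (t : K) :
    (hh φ 0 a * hh φ 1 b) * P2 φ 14 23 t * (hh φ 0 a * hh φ 1 b)⁻¹ = P2 φ 14 23 ((a ^ 2)⁻¹ * (b * t)) := by
  have e1 : (hh φ 0 a * hh φ 1 b) * P2 φ 14 23 t * (hh φ 0 a * hh φ 1 b)⁻¹ =
      hh φ 0 a * (hh φ 1 b * P2 φ 14 23 t * (hh φ 1 b)⁻¹) * (hh φ 0 a)⁻¹ := by group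
  rw [e1, yy_hh1 hb, yy_hh0 ha]

omit [Finite K] in
include hφ2 in
theorem Ew_pair [Finite K] {a b : K} (ha : a ≠ 0) (hb : b ≠ 0) (t u : K) :
    (hh φ 0 a * hh φ 1 b) * Ew φ t u * (hh φ 0 a * hh φ 1 b)⁻¹ =
      Ew φ ((a⁻¹ * chb φ b) * t) ((a⁻¹ * chb φ b) * φ (a⁻¹ * chb φ b) * u) := by
  have e1 : (hh φ 0 a * hh φ 1 b) * Ew φ t u * (hh φ 0 a * hh φ 1 b)⁻¹ =
      hh φ 0 a * (hh φ 1 b * Ew φ t u * (hh φ 1 b)⁻¹) * (hh φ 0 a)⁻¹ := by group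
  rw [e1, Ew_hh1 hφ2 hb, Ew_hh0 hφ2 ha, map_mul φ a⁻¹]
  congr 1 <;> ring

/-- Conjugating by a torus element keeps preservation. -/
theorem presU_conj {θ : ↥(twistedF4 K e) ≃* ↥(twistedF4 K e)} (hU : PresUT θ) {d : ↥(twistedF4 K e)}
    (hd : (d : GL chevF4.Idx K) ∈ chevF4.diagonalSubgroup K) : PresUT (conjByT θ d) := by
  intro g
  rw [conjByT_apply, ← hU g]
  have hd' : (d : GL chevF4.Idx K)⁻¹ ∈ chevF4.diagonalSubgroup K := Subgroup.inv_mem _ hd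
  have e1 : ((d⁻¹ * θ g * d : ↥(twistedF4 K e)) : GL chevF4.Idx K) =
      (d : GL chevF4.Idx K)⁻¹ * ((θ g : ↥(twistedF4 K e)) : GL chevF4.Idx K) * ((d : GL chevF4.Idx K)⁻¹)⁻¹ := by
    simp only [Subgroup.coe_mul, Subgroup.coe_inv, inv_inv]
  rw [e1]
  constructor
  · intro h
    have := H_norm_U' hd h
    have e2 : (d : GL chevF4.Idx K) * ((d : GL chevF4.Idx K)⁻¹ * ((θ g : ↥(twistedF4 K e)) : GL chevF4.Idx K) * ((d : GL chevF4.Idx K)⁻¹)⁻¹) * (d : GL chevF4.Idx K)⁻¹ =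
        ((θ g : ↥(twistedF4 K e)) : GL chevF4.Idx K) := by group
    rwa [e2] at this
  · intro h
    exact H_norm_U' hd' h

theorem presV_conj {θ : ↥(twistedF4 K e) ≃* ↥(twistedF4 K e)} (hU : PresVT θ) {d : ↥(twistedF4 K e)}
    (hd : (d : GL chevF4.Idx K) ∈ chevF4.diagonalSubgroup K) : PresVT (conjByT θ d) := by
  intro g
  rw [conjByT_apply, ← hU g]
  have hd' : (d : GL chevF4.Idx K)⁻¹ ∈ chevF4.diagonalSubgroup K := Subgroup.inv_mem _ hd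
  have e1 : ((d⁻¹ * θ g * d : ↥(twistedF4 K e)) : GL chevF4.Idx K) =
      (d : GL chevF4.Idx K)⁻¹ * ((θ g : ↥(twistedF4 K e)) : GL chevF4.Idx K) * ((d : GL chevF4.Idx K)⁻¹)⁻¹ := by
    simp only [Subgroup.coe_mul, Subgroup.coe_inv, inv_inv]
  rw [e1]
  constructor
  · intro h
    have := H_norm_V' hd h
    have e2 : (d : GL chevF4.Idx K) * ((d : GL chevF4.Idx K)⁻¹ * ((θ g : ↥(twistedF4 K e)) : GL chevF4.Idx K) * ((d : GL chevF4.Idx K)⁻¹)⁻¹) * (d : GL chevF4.Idx K)⁻¹ =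
        ((θ g : ↥(twistedF4 K e)) : GL chevF4.Idx K) := by group
    rwa [e2] at this
  · intro h
    exact H_norm_V' hd' h

include hφ2 hρ hτ hφ hB hN hS in
/-- An automorphism fixing the first and the second class fixes the torus. -/
theorem fix_H {θ : ↥(twistedF4 K e) ≃* ↥(twistedF4 K e)} (hU : PresUT θ) (hV : PresVT θ)
    (hx : ∀ t, θ (xG hφ t) = xG hφ t) (hE : ∀ t u, θ (eG hφ t u) = eG hφ t u) {d : ↥(twistedF4 K e)}
    (hd : (d : GL chevF4.Idx K) ∈ chevF4.diagonalSubgroup K) : θ d = d := by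
  obtain ⟨a, b, ha, hb, e1⟩ := H_Fx_form hρ hτ hd (G1_le_Fx hφ2 hρ hτ hφ d.2)
  have hd' := presH hφ2 hρ hτ hφ hB hN hS hU hV hd
  obtain ⟨a', b', ha', hb', e2⟩ := H_Fx_form hρ hτ hd' (G1_le_Fx hφ2 hρ hτ hφ (θ d).2)
  have h1 : a ^ 2 * (b⁻¹ * 1) = a' ^ 2 * (b'⁻¹ * 1) := by
    have e3 : d * xG hφ 1 * d⁻¹ = xG hφ (a ^ 2 * (b⁻¹ * 1)) := by
      apply Subtype.ext
      show (d : GL chevF4.Idx K) * Y1 φ 1 * (d : GL chevF4.Idx K)⁻¹ = Y1 φ _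
      rw [e1, Y1_pair ha hb]
    have e4 : θ d * xG hφ 1 * (θ d)⁻¹ = xG hφ (a' ^ 2 * (b'⁻¹ * 1)) := by
      apply Subtype.ext
      show ((θ d : ↥(twistedF4 K e)) : GL chevF4.Idx K) * Y1 φ 1 * ((θ d : ↥(twistedF4 K e)) : GL chevF4.Idx K)⁻¹ = Y1 φ _
      rw [e2, Y1_pair ha' hb']
    have e5 := congrArg θ e3
    rw [map_mul, map_mul, map_inv, hx, hx, e4] at e5
    exact (xG_inj hφ e5).symm
  have h2 : a⁻¹ * chb φ b = a'⁻¹ * chb φ b' := by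
    have e3 : d * eG hφ 1 0 * d⁻¹ = eG hφ ((a⁻¹ * chb φ b) * 1) ((a⁻¹ * chb φ b) * φ (a⁻¹ * chb φ b) * 0) := by
      apply Subtype.ext
      show (d : GL chevF4.Idx K) * Ew φ 1 0 * (d : GL chevF4.Idx K)⁻¹ = Ew φ _ _
      rw [e1, Ew_pair hφ2 ha hb]
    have e4 : θ d * eG hφ 1 0 * (θ d)⁻¹ = eG hφ ((a'⁻¹ * chb φ b') * 1) ((a'⁻¹ * chb φ b') * φ (a'⁻¹ * chb φ b') * 0) := by
      apply Subtype.ext
      show ((θ d : ↥(twistedF4 K e)) : GL chevF4.Idx K) * Ew φ 1 0 * ((θ d : ↥(twistedF4 K e)) : GL chevF4.Idx K)⁻¹ = Ew φ _ _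
      rw [e2, Ew_pair hφ2 ha' hb']
    have e5 := congrArg θ e3
    rw [map_mul, map_mul, map_inv, hE, hE, e4] at e5
    have e6 := (Ew_inj (congrArg Subtype.val e5)).1
    simpa using e6.symm
  have h3 : a ^ 2 * b⁻¹ = a' ^ 2 * b'⁻¹ := by simpa using h1
  obtain ⟨rfl, rfl⟩ := torus_alg hφ2 ha hb ha' hb' h3 h2
  apply Subtype.ext
  rw [e1, e2]

include hφ2 hρ hτ in
/-- The uniqueness step: the left factor commutes with the torus, hence is trivial. -/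
theorem left_trivial (hne : ∃ a : K, a ≠ 0 ∧ a ≠ 1) {r : GL chevF4.Idx K} (hr : r ∈ YY T 1)
    (hc : ∀ {a : K}, a ≠ 0 → hh φ 0 a * r * (hh φ 0 a)⁻¹ = r) : r = 1 := by
  obtain ⟨p, q, rfl⟩ := Ew_of_fix hφ2 hρ hτ hr
  obtain ⟨a, ha0, ha1⟩ := hne
  have h1 := hc (inv_ne_zero ha0)
  rw [Ew_hh0 hφ2 (inv_ne_zero ha0), inv_inv] at h1
  obtain ⟨h2, h3⟩ := Ew_inj h1
  have hp : p = 0 := by
    have h4 : (a - 1) * p = 0 := by linear_combination h2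
    rcases mul_eq_zero.1 h4 with h5 | h5
    · exact absurd (sub_eq_zero.1 h5) ha1
    · exact h5
  have hq : q = 0 := by
    have h4 : (a * φ a - 1) * q = 0 := by linear_combination h3
    rcases mul_eq_zero.1 h4 with h5 | h5
    · exact absurd (sub_eq_zero.1 h5) (M_ne_one hφ2 ha0 ha1)
    · exact h5
  rw [hp, hq, Ew_zero]

include hφ2 hρ hτ hφ hB hN hS in
/-- A good automorphism fixing the second class and the torus fixes its opposite. -/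
theorem fix_neg {θ : ↥(twistedF4 K e) ≃* ↥(twistedF4 K e)} (hU : PresUT θ) (hV : PresVT θ) (hne : ∃ a : K, a ≠ 0 ∧ a ≠ 1)
    (hE : ∀ x : ↥(twistedF4 K e), (x : GL chevF4.Idx K) ∈ YY T 1 → θ x = x)
    (hH : ∀ d : ↥(twistedF4 K e), (d : GL chevF4.Idx K) ∈ chevF4.diagonalSubgroup K → θ d = d)
    {x : ↥(twistedF4 K e)} (hx : (x : GL chevF4.Idx K) ∈ YY T 1) :
    θ (⟨nw 1, nw_mem hφ2 hρ hτ hφ 1⟩ * x * ⟨nw 1, nw_mem hφ2 hρ hτ hφ 1⟩⁻¹) =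
      ⟨nw 1, nw_mem hφ2 hρ hτ hφ 1⟩ * x * ⟨nw 1, nw_mem hφ2 hρ hτ hφ 1⟩⁻¹ := by
  have hnw := nw_mem (K := K) hφ2 hρ hτ hφ
  let n' : ↥(twistedF4 K e) := ⟨nw 1, hnw 1⟩
  change θ (n' * x * n'⁻¹) = n' * x * n'⁻¹
  have hnc : (n' : GL chevF4.Idx K) = nw 1 := rfl
  by_cases hx1 : (x : GL chevF4.Idx K) = 1
  · have : x = 1 := Subtype.ext hx1
    subst this
    simp
  obtain ⟨x₁, hx₁, h₁, hh₁, x₂, hx₂, e1⟩ := rank1_fix hρ hτ 1 hx hx1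
  obtain ⟨z, hz, e2⟩ := pres_neg hφ2 hρ hτ hφ hB hN hS 1 hU hV hx
  change ((θ (n' * x * n'⁻¹) : ↥(twistedF4 K e)) : GL chevF4.Idx K) = nw 1 * z * (nw 1)⁻¹ at e2
  have hz1 : z ≠ 1 := by
    intro h
    have h3 : ((θ (n' * x * n'⁻¹) : ↥(twistedF4 K e)) : GL chevF4.Idx K) = 1 := by
      rw [e2, h]
      group
    have h4 : θ (n' * x * n'⁻¹) = 1 := Subtype.ext h3
    have h5 : n' * x * n'⁻¹ = 1 := (map_eq_one_iff θ θ.injective).1 h4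
    exact hx1 (congrArg Subtype.val (conj_eq_one h5))
  obtain ⟨x₁', hx₁', h₂, hh₂, x₂', hx₂', e3⟩ := rank1_fix hρ hτ 1 hz hz1
  -- lift to the group
  have hx₁G := fund_le hφ2 hρ hτ hφ 1 hx₁
  have hx₂G := fund_le hφ2 hρ hτ hφ 1 hx₂
  have hh₁G := H_Fx_le hφ2 hρ hτ hφ hh₁
  let X₁ : ↥(twistedF4 K e) := ⟨x₁, hx₁G⟩
  let X₂ : ↥(twistedF4 K e) := ⟨x₂, hx₂G⟩
  let H₁ : ↥(twistedF4 K e) := ⟨h₁, hh₁G⟩
  have e4 : n' * x * n'⁻¹ = X₁ * H₁ * n' * X₂ := Subtype.ext e1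
  let m := θ n'
  have e5 : ((θ (n' * x * n'⁻¹) : ↥(twistedF4 K e)) : GL chevF4.Idx K) = x₁ * h₁ * (m : GL chevF4.Idx K) * x₂ := by
    rw [e4, map_mul, map_mul, map_mul, hE X₁ hx₁, hE X₂ hx₂, hH H₁ hh₁.1]
    rfl
  have e6 : x₁ * h₁ * (m : GL chevF4.Idx K) * x₂ = x₁' * h₂ * nw 1 * x₂' := by
    rw [← e5, e2, e3]
  set r := h₁⁻¹ * (x₁⁻¹ * x₁') * h₁ with hr_def
  set h₀ := h₁⁻¹ * h₂ with hh₀_def
  set w := x₂' * x₂⁻¹ with hw_def
  have e7 : (m : GL chevF4.Idx K) = r * h₀ * nw 1 * w := by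
    have : (m : GL chevF4.Idx K) = (x₁ * h₁)⁻¹ * (x₁ * h₁ * (m : GL chevF4.Idx K) * x₂) * x₂⁻¹ := by group
    rw [this, e6, hr_def, hh₀_def, hw_def]
    group
  have hrY : r ∈ YY T 1 := by
    have h3 := H_conj_YY hρ hτ 1 (d := h₁⁻¹) (x := x₁⁻¹ * x₁') (Subgroup.inv_mem _ hh₁)
      (Subgroup.mul_mem _ (Subgroup.inv_mem _ hx₁) hx₁')
    rw [inv_inv] at h3
    exact h3
  have hwU : w ∈ chevF4.posUnipotent K :=
    Subgroup.mul_mem _ (lr_le_U 1 hx₂'.1) (Subgroup.inv_mem _ (lr_le_U 1 hx₂.1))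
  have hh₀H : h₀ ∈ chevF4.diagonalSubgroup K := Subgroup.mul_mem _ (Subgroup.inv_mem _ hh₁.1) hh₂.1
  have hr1 : r = 1 := by
    refine left_trivial hφ2 hρ hτ hne hrY (fun {a} ha => ?_)
    let s : ↥(twistedF4 K e) := tG hφ2 hρ hτ hφ 0 ha
    have hsH : (s : GL chevF4.Idx K) ∈ chevF4.diagonalSubgroup K := hh_H 0 ha
    let t : ↥(twistedF4 K e) := n'⁻¹ * s * n'
    have htH : (t : GL chevF4.Idx K) ∈ chevF4.diagonalSubgroup K := by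
      have h3 := H_norm_N sys tbl_chevF4 (Subgroup.inv_mem _ (nw_N (K := K) 1)) hsH
      have e8 : (t : GL chevF4.Idx K) = (nw 1)⁻¹ * (s : GL chevF4.Idx K) * ((nw 1)⁻¹)⁻¹ := by
        rw [inv_inv]
        rfl
      rw [e8]
      exact h3
    have e9 : m * t * m⁻¹ = s := by
      have h3 := hH s hsH
      have h4 := hH t htH
      have e8 : s = n' * t * n'⁻¹ := by
        simp only [t]
        group
      have h5 := h3
      rw [e8, map_mul, map_mul, map_inv, h4] at h5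
      rw [← e8] at h5
      exact h5
    have e10 : (m : GL chevF4.Idx K) * (t : GL chevF4.Idx K) = (s : GL chevF4.Idx K) * (m : GL chevF4.Idx K) := by
      have h3 : m * t = s * m := by
        rw [← e9]
        group
      exact congrArg Subtype.val h3
    have e11 : nw 1 * (t : GL chevF4.Idx K) = (s : GL chevF4.Idx K) * nw 1 := by
      have h3 : n' * t = s * n' := by
        simp only [t]
        group
      exact congrArg Subtype.val h3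
    rw [e7] at e10
    set s' := (s : GL chevF4.Idx K) with hs'
    set t' := (t : GL chevF4.Idx K) with ht'
    have e12 : r * (h₀ * s') * nw 1 * (t'⁻¹ * w * t') = (s' * r * s'⁻¹) * (s' * h₀) * nw 1 * w := by
      have e13 : r * (h₀ * s') * nw 1 * (t'⁻¹ * w * t') = r * h₀ * (s' * nw 1) * (t'⁻¹ * w * t') := by group
      rw [e13, ← e11]
      have e14 : r * h₀ * (nw 1 * t') * (t'⁻¹ * w * t') = r * h₀ * nw 1 * w * t' := by group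
      rw [e14, e10]
      group
    have h3 := uniq_left 1 hrY.1 (H_conj_gen sys tbl_chevF4 hsH (fun r hr => ((closed_lr 1).pos r hr).1) hrY.1)
      (Subgroup.mul_mem _ hh₀H hsH) (Subgroup.mul_mem _ hsH hh₀H)
      (H_norm_U' (Subgroup.inv_mem _ htH) hwU |> fun h => by simpa using h) hwU e12
    exact h3.symm
  have e15 : x₁' = x₁ := by
    have h3 : x₁⁻¹ * x₁' = 1 := by
      have : x₁⁻¹ * x₁' = h₁ * r * h₁⁻¹ := by
        rw [hr_def]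
        group
      rw [this, hr1]
      group
    exact (inv_mul_eq_one.1 h3).symm
  rw [e15] at e3
  apply Subtype.ext
  have hyV : ((θ (n' * x * n'⁻¹) : ↥(twistedF4 K e)) : GL chevF4.Idx K) ∈ chevF4.negUnipotent K :=
    (hV _).2 (nw_V 1 hx.1)
  have hy'V : ((n' * x * n'⁻¹ : ↥(twistedF4 K e)) : GL chevF4.Idx K) ∈ chevF4.negUnipotent K := nw_V 1 hx.1
  refine inj_left 1 (x₁ := x₁) (h := h₂) (h' := h₁) (x₂ := x₂') (x₂' := x₂) hyV hy'V (lr_le_U 1 hx₂'.1) (lr_le_U 1 hx₂.1) hh₂.1 hh₁.1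
    (e2.trans e3) e1

/-- Fixing the generators. -/
theorem fix_all {θ : ↥(twistedF4 K e) ≃* ↥(twistedF4 K e)}
    (h1 : ∀ t, θ (xG hφ t) = xG hφ t) (h2 : ∀ t, θ (yG hφ t) = yG hφ t)
    (h3 : ∀ t u, θ (eG hφ t u) = eG hφ t u) (h4 : ∀ t u, θ (fG hφ t u) = fG hφ t u) (g : ↥(twistedF4 K e)) : θ g = g := by
  let L : Subgroup (GL chevF4.Idx K) := ((θ.toMonoidHom).eqLocus (MonoidHom.id _)).map (twistedF4 K e).subtype
  have hL : twistedF4 K e ≤ L := by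
    refine (Subgroup.closure_le _).2 ?_
    intro g hg
    rcases gen_cases hφ hg with ⟨t, rfl⟩ | ⟨t, u, rfl⟩ | ⟨t, rfl⟩ | ⟨t, u, rfl⟩
    · exact ⟨xG hφ t, h1 t, rfl⟩
    · exact ⟨eG hφ t u, h3 t u, rfl⟩
    · exact ⟨yG hφ t, h2 t, rfl⟩
    · exact ⟨fG hφ t u, h4 t u, rfl⟩
  obtain ⟨g', hg', e1⟩ := hL g.2
  have e2 : g' = g := Subtype.ext e1
  rw [← e2]
  exact hg'

include hφ2 hρ hτ hφ hB hN hS in
/-- A good automorphism fixing the first class and its opposite is inner, by an element of the torus. -/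
theorem main_fix {θ : ↥(twistedF4 K e) ≃* ↥(twistedF4 K e)} (hU : PresUT θ) (hV : PresVT θ) (hne : ∃ a : K, a ≠ 0 ∧ a ≠ 1)
    (hx : ∀ t, θ (xG hφ t) = xG hφ t) (hy : ∀ t, θ (yG hφ t) = yG hφ t) :
    ∃ d : ↥(twistedF4 K e), ∀ g, θ g = d * g * d⁻¹ := by
  obtain ⟨c, hc, hE⟩ := fix_E hφ2 hρ hτ hφ hB hN hS hU hV hx hy hne
  obtain ⟨hα, hχ⟩ := norm_char hφ2 hc
  set α := c ^ 3 * (φ c) ^ 4 with hαd
  have hα2 : α ^ 2 ≠ 0 := pow_ne_zero 2 hα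
  let d : ↥(twistedF4 K e) := tG hφ2 hρ hτ hφ 0 hα * tG hφ2 hρ hτ hφ 1 hα2
  have hdc : (d : GL chevF4.Idx K) = hh φ 0 α * hh φ 1 (α ^ 2) := rfl
  have hdH : (d : GL chevF4.Idx K) ∈ chevF4.diagonalSubgroup K := Subgroup.mul_mem _ (hh_H 0 hα) (hh_H 1 hα2)
  refine ⟨d, ?_⟩
  have dx : ∀ t, d * xG hφ t * d⁻¹ = xG hφ t := by
    intro t
    apply Subtype.ext
    show (d : GL chevF4.Idx K) * Y1 φ t * (d : GL chevF4.Idx K)⁻¹ = Y1 φ t
    rw [hdc, Y1_pair hα hα2]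
    congr 1
    field_simp
  have dy : ∀ t, d * yG hφ t * d⁻¹ = yG hφ t := by
    intro t
    apply Subtype.ext
    show (d : GL chevF4.Idx K) * ((yG hφ t : ↥(twistedF4 K e)) : GL chevF4.Idx K) * (d : GL chevF4.Idx K)⁻¹ = ((yG hφ t : ↥(twistedF4 K e)) : GL chevF4.Idx K)
    rw [yG_coe, hdc, yy_pair hα hα2]
    congr 1
    field_simp
  have dE : ∀ t u, d * eG hφ t u * d⁻¹ = eG hφ (c * t) (c * φ c * u) := by
    intro t u
    apply Subtype.ext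
    show (d : GL chevF4.Idx K) * Ew φ t u * (d : GL chevF4.Idx K)⁻¹ = Ew φ (c * t) (c * φ c * u)
    rw [hdc, Ew_pair hφ2 hα hα2, hχ]
  let θ' := conjByT θ d
  have hU' : PresUT θ' := presU_conj hU hdH
  have hV' : PresVT θ' := presV_conj hV hdH
  have hconj : ∀ {x : ↥(twistedF4 K e)}, d * x * d⁻¹ = x → d⁻¹ * x * d = x := by
    intro x h
    calc d⁻¹ * x * d = d⁻¹ * (d * x * d⁻¹) * d := by rw [h]
      _ = x := by group
  have hx' : ∀ t, θ' (xG hφ t) = xG hφ t := by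
    intro t
    show conjByT θ d _ = _
    rw [conjByT_apply, hx]
    exact hconj (dx t)
  have hy' : ∀ t, θ' (yG hφ t) = yG hφ t := by
    intro t
    show conjByT θ d _ = _
    rw [conjByT_apply, hy]
    exact hconj (dy t)
  have hE' : ∀ t u, θ' (eG hφ t u) = eG hφ t u := by
    intro t u
    show conjByT θ d _ = _
    rw [conjByT_apply, hE, ← dE]
    group
  have hE'' : ∀ x : ↥(twistedF4 K e), (x : GL chevF4.Idx K) ∈ YY T 1 → θ' x = x := by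
    intro x hx
    obtain ⟨t, u, h⟩ := Ew_of_fix hφ2 hρ hτ hx
    have e1 : x = eG hφ t u := Subtype.ext h
    rw [e1]
    exact hE' t u
  have hH : ∀ d' : ↥(twistedF4 K e), (d' : GL chevF4.Idx K) ∈ chevF4.diagonalSubgroup K → θ' d' = d' :=
    fun d' hd' => fix_H hφ2 hρ hτ hφ hB hN hS hU' hV' hx' hE' hd'
  have hf : ∀ t u, θ' (fG hφ t u) = fG hφ t u := by
    intro t u
    have hY : Ew φ t u ∈ YY T 1 := ⟨Ec_mem _ _ _ _, Ew_fix hφ2 hρ hτ t u⟩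
    obtain ⟨z, hz, e1⟩ := nw_conj_N0' hφ2 hρ hτ hφ hB hN hS 1 hY
    have hzG := fund_le hφ2 hρ hτ hφ 1 hz
    have e2 : fG hφ t u = ⟨nw 1, nw_mem hφ2 hρ hτ hφ 1⟩ * ⟨z, hzG⟩ * ⟨nw 1, nw_mem hφ2 hρ hτ hφ 1⟩⁻¹ := Subtype.ext e1
    rw [e2]
    exact fix_neg hφ2 hρ hτ hφ hB hN hS hU' hV' hne hE'' hH hz
  intro g
  have h1 : θ' g = g := fix_all hφ hx' hy' hE' hf g
  have h2 : d⁻¹ * θ g * d = g := by
    rw [← conjByT_apply]
    exact h1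
  calc θ g = d * (d⁻¹ * θ g * d) * d⁻¹ := by group
    _ = d * g * d⁻¹ := by rw [h2]

end main

end Cfsg.Agent.Lib.TF4.I2
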