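import Cfsg.Agent.Lib.TF4.I2Aut6
import Cfsg.Agent.Lib.TF4.I2Final

/-!
# Automorphisms of `²F₄(q)`: the count
-/

set_option autoImplicit false
set_option linter.unusedSectionVars false
set_option linter.unusedVariables false
set_option linter.unusedSimpArgs false
set_option maxRecDepth 100000

namespace Cfsg.Agent.Lib.TF4.I2

open Cfsg DoubleCoset
open Cfsg.Lie Cfsg.Agent.Lib.Twisted
open Cfsg.Agent.Lib.Chevalley
open Cfsg.Agent.Lib.Chevalley.SL2Hom (Rel)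
open Cfsg.Agent.Lib.Chevalley.Tbl.F4 (sys comm nform_check)
open Cfsg.Agent.Lib.ChevBN.Elem Cfsg.Agent.Lib.ChevBN.Table Cfsg.Agent.Lib.ChevBN.Rel
open Cfsg.Agent.Lib.ChevBN.Opp Cfsg.Agent.Lib.ChevBN.Pair Cfsg.Agent.Lib.ChevBN.Torus Cfsg.Agent.Lib.ChevBN.Stmts
open Cfsg.Agent.Lib.ChevOrder.BNCount Cfsg.Agent.Lib.BNPair.Basic Cfsg.Agent.Lib.BNPair.Parabolic
open Cfsg.Agent.Lib.ChevBN.FastData (tbl_chevF4)
open Cfsg.Agent.Lib.ChevBN.Monomial Cfsg.Agent.Lib.ChevBN.Core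
open Cfsg.Agent.Lib.ChevAut (fieldGL fieldGL_X fieldGL_symm)
open Cfsg.Agent.Lib.TF4.T2 (posL pos_of posL_of)

universe u

variable {K : Type u} [Field K] [CharP K 2]

set_option quotPrecheck false in
/-- The root elements. -/
local notation "Xr" => X (sys (F := _)).toAddRel

section field

variable (σ : K ≃+* K) {φ : K →+* K} {e : ℕ} (hφ : ∀ t, φ t = t ^ e)

theorem fg_X (r : ℕ) (t : K) : fieldGL chevF4 σ (Xr r t) = Xr r (σ t) := fieldGL_X _ σ r t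

include hφ

theorem fg_Pw (t : K) : fieldGL chevF4 σ (Pw φ t) = Pw φ (σ t) := by
  unfold Pw Pc
  rw [map_mul, fg_X, fg_X, frob_comm hφ]

theorem fg_Ew (t u : K) : fieldGL chevF4 σ (Ew φ t u) = Ew φ (σ t) (σ u) := by
  unfold Ew Ec
  rw [map_mul, map_mul, map_mul, fg_X, fg_X, fg_X, fg_X, frob_comm hφ, frob_comm hφ]
  simp only [map_add, map_mul, map_pow]

theorem fg_Pwn (t : K) : fieldGL chevF4 σ (N0 * Pw φ t * N0⁻¹) = N0 * Pw φ (σ t) * N0⁻¹ := by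
  unfold Pw
  rw [N0_Pc, N0_Pc, map_mul, fg_X, fg_X, frob_comm hφ]

theorem fg_Ewn (t u : K) : fieldGL chevF4 σ (N0 * Ew φ t u * N0⁻¹) = N0 * Ew φ (σ t) (σ u) * N0⁻¹ := by
  unfold Ew
  rw [N0_Ec, N0_Ec, map_mul, map_mul, map_mul, fg_X, fg_X, fg_X, fg_X, frob_comm hφ, frob_comm hφ]
  simp only [map_add, map_mul, map_pow]

/-- The field automorphisms preserve the group. -/
theorem fg_mem {g : GL chevF4.Idx K} (hg : g ∈ twistedF4 K e) : fieldGL chevF4 σ g ∈ twistedF4 K e := by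
  have hle : twistedF4 K e ≤ (twistedF4 K e).comap (fieldGL chevF4 σ).toMonoidHom := by
    refine (Subgroup.closure_le _).2 ?_
    intro g hg
    rcases gen_cases hφ hg with ⟨t, rfl⟩ | ⟨t, u, rfl⟩ | ⟨t, rfl⟩ | ⟨t, u, rfl⟩
    · show fieldGL chevF4 σ (Pw φ t) ∈ twistedF4 K e
      rw [fg_Pw σ hφ]
      exact Pw_mem hφ _
    · show fieldGL chevF4 σ (Ew φ t u) ∈ twistedF4 K e
      rw [fg_Ew σ hφ]
      exact Ew_mem hφ _ _
    · show fieldGL chevF4 σ (N0 * Pw φ t * N0⁻¹) ∈ twistedF4 K e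
      rw [fg_Pwn σ hφ]
      exact Pwn_mem hφ _
    · show fieldGL chevF4 σ (N0 * Ew φ t u * N0⁻¹) ∈ twistedF4 K e
      rw [fg_Ewn σ hφ]
      exact Ewn_mem hφ _ _
  exact hle hg

omit hφ in
theorem fg_U {g : GL chevF4.Idx K} (hg : g ∈ chevF4.posUnipotent K) : fieldGL chevF4 σ g ∈ chevF4.posUnipotent K := by
  rw [posUnipotent_eq (sys (F := K)).toAddRel] at hg ⊢
  refine gen_induction (sys (F := K)).toAddRel (P := fun g => fieldGL chevF4 σ g ∈ gen (sys (F := K)).toAddRel {r | chevF4.IsPosRoot r}) (by simp) ?_ ?_ hg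
  · intro r hr t
    rw [fg_X]
    exact X_mem_gen _ hr _
  · intro a b ha hb
    rw [map_mul]
    exact Subgroup.mul_mem _ ha hb

omit hφ in
theorem fg_V {g : GL chevF4.Idx K} (hg : g ∈ chevF4.negUnipotent K) : fieldGL chevF4 σ g ∈ chevF4.negUnipotent K := by
  rw [negUnipotent_eq (sys (F := K)).toAddRel] at hg ⊢
  refine gen_induction (sys (F := K)).toAddRel (P := fun g => fieldGL chevF4 σ g ∈ gen (sys (F := K)).toAddRel {r | chevF4.IsNegRoot r}) (by simp) ?_ ?_ hg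
  · intro r hr t
    rw [fg_X]
    exact X_mem_gen _ hr _
  · intro a b ha hb
    rw [map_mul]
    exact Subgroup.mul_mem _ ha hb

end field

section count
variable {φ : K →+* K} (hφ2 : ∀ t, (φ (φ t)) ^ 2 = t) {T : Tw (sys (F := K)).toAddRel} (hρ : T.ρ = ρ0)
  (hτ : ∀ r t, T.τ r t = lam r (φ t)) {e : ℕ} (hφ : ∀ t, φ t = t ^ e) [Finite K]
  {P : Cfsg.BNPair ↥(twistedF4 K e)}
  (hB : P.B = (chevF4.borelSubgroup K ⊓ twistedF4 K e).subgroupOf (twistedF4 K e))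
  (hN : P.N = (chevF4.monomialSubgroup K ⊓ twistedF4 K e).subgroupOf (twistedF4 K e))
  (hS : P.S = {g : ↥(twistedF4 K e) | (g : GL chevF4.Idx K) ∈ Set.range (nw (K := K))})

/-- The automorphism attached to a field automorphism. -/
theorem exists_field_aut (hφ : ∀ t, φ t = t ^ e) (σ : K ≃+* K) :
    ∃ θ : ↥(twistedF4 K e) ≃* ↥(twistedF4 K e), ∀ g, ((θ g : ↥(twistedF4 K e)) : GL chevF4.Idx K) = fieldGL chevF4 σ g :=
  exists_aut_of (fieldGL chevF4 σ) (fun g hg => fg_mem σ hφ hg)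

theorem fg_symm_apply (σ : K ≃+* K) (g : GL chevF4.Idx K) : fieldGL chevF4 σ (fieldGL chevF4 σ.symm g) = g := by
  have := fieldGL_symm (D := chevF4) σ.symm g
  simpa using this

/-- A field automorphism preserves `U¹`. -/
theorem field_presU {σ : K ≃+* K} {θ : ↥(twistedF4 K e) ≃* ↥(twistedF4 K e)}
    (h : ∀ g, ((θ g : ↥(twistedF4 K e)) : GL chevF4.Idx K) = fieldGL chevF4 σ g) : PresUT θ := by
  intro g
  rw [h]
  constructor
  · intro h1
    have h2 := fg_U σ.symm h1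
    rwa [fieldGL_symm] at h2
  · exact fg_U σ

theorem field_presV {σ : K ≃+* K} {θ : ↥(twistedF4 K e) ≃* ↥(twistedF4 K e)}
    (h : ∀ g, ((θ g : ↥(twistedF4 K e)) : GL chevF4.Idx K) = fieldGL chevF4 σ g) : PresVT θ := by
  intro g
  rw [h]
  constructor
  · intro h1
    have h2 := fg_V σ.symm h1
    rwa [fieldGL_symm] at h2
  · exact fg_V σ

theorem conjByT_conjByT {G : Type*} [Group G] (θ : G ≃* G) (x y : G) : conjByT (conjByT θ x) y = conjByT θ (x * y) := by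
  apply MulEquiv.ext
  intro g
  simp only [conjByT_apply]
  group

include hφ2 hρ hτ hφ hB hN hS

/-- The normal form of automorphisms. -/
theorem exists_form (hSyl : ∃ Q : Sylow 2 ↥(twistedF4 K e), (Q : Subgroup ↥(twistedF4 K e)) = (chevF4.posUnipotent K).subgroupOf (twistedF4 K e))
    [Fact (Nat.Prime 2)] (hne : ∃ a : K, a ≠ 0 ∧ a ≠ 1) (θ : ↥(twistedF4 K e) ≃* ↥(twistedF4 K e)) :
    ∃ (x : ↥(twistedF4 K e)) (σ : K ≃+* K), ∀ g, ((conjByT θ x g : ↥(twistedF4 K e)) : GL chevF4.Idx K) = fieldGL chevF4 σ g := by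
  obtain ⟨x₁, hx₁⟩ := exists_presUT hSyl θ
  obtain ⟨x₂, hU, hV⟩ := exists_presV' hφ2 hρ hτ hφ hB hN hS hx₁
  set θ₁ := conjByT (conjByT θ x₁) x₂ with hθ₁
  obtain ⟨c, σ, hc⟩ := rank1_aut hφ2 hρ hτ hφ hB hN hS hU hV
  obtain ⟨E, hE⟩ := exists_field_aut (K := K) hφ σ
  have hEU := field_presU hE
  have hEV := field_presV hE
  have hEx : ∀ t, E (xG hφ t) = xG hφ (σ t) := fun t => Subtype.ext ((hE _).trans (fg_Pw σ hφ t))
  have hEy : ∀ t, E (yG hφ t) = yG hφ (σ t) := fun t => Subtype.ext ((hE _).trans (fg_Pwn σ hφ t))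
  have hc0 : (c : K) ≠ 0 := c.ne_zero
  let d : ↥(twistedF4 K e) := tG hφ2 hρ hτ hφ 1 hc0
  have hdH : (d⁻¹ : ↥(twistedF4 K e)).1 ∈ chevF4.diagonalSubgroup K := Subgroup.inv_mem _ (hh_H 1 hc0)
  let θ₂ : ↥(twistedF4 K e) ≃* ↥(twistedF4 K e) := conjByT (E.symm.trans θ₁) d⁻¹
  have hU₂ : PresUT θ₂ := presU_conj (fun g => by
    show ((θ₁ (E.symm g) : ↥(twistedF4 K e)) : GL chevF4.Idx K) ∈ _ ↔ _
    rw [hU, ← hEU (E.symm g), MulEquiv.apply_symm_apply]) hdH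
  have hV₂ : PresVT θ₂ := presV_conj (fun g => by
    show ((θ₁ (E.symm g) : ↥(twistedF4 K e)) : GL chevF4.Idx K) ∈ _ ↔ _
    rw [hV, ← hEV (E.symm g), MulEquiv.apply_symm_apply]) hdH
  have hEsx : ∀ t, E.symm (xG hφ t) = xG hφ (σ.symm t) := by
    intro t
    rw [MulEquiv.symm_apply_eq, hEx, RingEquiv.apply_symm_apply]
  have hEsy : ∀ t, E.symm (yG hφ t) = yG hφ (σ.symm t) := by
    intro t
    rw [MulEquiv.symm_apply_eq, hEy, RingEquiv.apply_symm_apply]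
  have hx₂ : ∀ t, θ₂ (xG hφ t) = xG hφ t := by
    intro t
    show conjByT (E.symm.trans θ₁) d⁻¹ _ = _
    rw [conjByT_apply, inv_inv, MulEquiv.trans_apply, hEsx, (hc _).1, RingEquiv.apply_symm_apply]
    apply Subtype.ext
    show hh φ 1 (c : K) * Y1 φ ((c : K) * t) * (hh φ 1 (c : K))⁻¹ = Y1 φ t
    rw [Y1_hh1 hc0]
    congr 1
    field_simp
  have hy₂ : ∀ t, θ₂ (yG hφ t) = yG hφ t := by
    intro t
    show conjByT (E.symm.trans θ₁) d⁻¹ _ = _
    rw [conjByT_apply, inv_inv, MulEquiv.trans_apply, hEsy, (hc _).2, RingEquiv.apply_symm_apply]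
    apply Subtype.ext
    show hh φ 1 (c : K) * ((yG hφ (((c⁻¹ : Kˣ) : K) * t) : ↥(twistedF4 K e)) : GL chevF4.Idx K) * (hh φ 1 (c : K))⁻¹ = ((yG hφ t : ↥(twistedF4 K e)) : GL chevF4.Idx K)
    rw [yG_coe, yG_coe, yy_hh1 hc0]
    congr 1
    simp
  obtain ⟨z, hz⟩ := main_fix hφ2 hρ hτ hφ hB hN hS hU₂ hV₂ hne hx₂ hy₂
  refine ⟨x₁ * x₂ * (d⁻¹ * z), σ, fun g => ?_⟩
  have e1 : conjByT θ (x₁ * x₂ * (d⁻¹ * z)) = conjByT θ₁ (d⁻¹ * z) := by
    rw [hθ₁, conjByT_conjByT, conjByT_conjByT, mul_assoc]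
  have e2 : θ₂ (E g) = d * θ₁ g * d⁻¹ := by
    show conjByT (E.symm.trans θ₁) d⁻¹ _ = _
    rw [conjByT_apply, inv_inv, MulEquiv.trans_apply, MulEquiv.symm_apply_apply]
  have e3 := hz (E g)
  rw [e2] at e3
  have e4 : conjByT θ₁ (d⁻¹ * z) g = E g := by
    rw [conjByT_apply]
    calc (d⁻¹ * z)⁻¹ * θ₁ g * (d⁻¹ * z) = z⁻¹ * (d * θ₁ g * d⁻¹) * z := by group
      _ = E g := by
        rw [e3]
        group
  rw [e1, e4, hE]

/-- The count. -/
theorem out_eq (hSyl : ∃ Q : Sylow 2 ↥(twistedF4 K e), (Q : Subgroup ↥(twistedF4 K e)) = (chevF4.posUnipotent K).subgroupOf (twistedF4 K e))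
    [Fact (Nat.Prime 2)] (hne : ∃ a : K, a ≠ 0 ∧ a ≠ 1) :
    Nat.card (Cfsg.Out ↥(twistedF4 K e)) = Nat.card (K ≃+* K) := by
  have h := out_count (G := ↥(twistedF4 K e)) (A := Unit) (S := K ≃+* K) (⊤ : Subgroup Unit)
    (fun θ _ σ => ∀ g, ((θ g : ↥(twistedF4 K e)) : GL chevF4.Idx K) = fieldGL chevF4 σ g)
    (fun _ σ => exists_field_aut hφ σ)
    (fun θ => by
      obtain ⟨x, σ, h⟩ := exists_form hφ2 hρ hτ hφ hB hN hS hSyl hne θ
      exact ⟨x, (), σ, h⟩)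
    (fun {θ θ' c c' σ σ'} h1 h2 x hx => by
      refine ⟨?_, Subgroup.mem_top _⟩
      have hU1 := field_presU h1
      have hU2 := field_presU h2
      have hV1 := field_presV h1
      have hV2 := field_presV h2
      have hxH : (x : GL chevF4.Idx K) ∈ chevF4.diagonalSubgroup K := by
        refine mem_H_of_norm hφ2 hρ hτ hφ hB hN hS x (fun u hu => ?_) (fun u hu => ?_)
        · have e1 : x * u * x⁻¹ = θ (θ'.symm u) := by
            rw [hx, MulEquiv.apply_symm_apply]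
          rw [e1]
          exact (hU1 _).2 ((presUT_symm hU2 u).2 hu)
        · have e1 : x * u * x⁻¹ = θ (θ'.symm u) := by
            rw [hx, MulEquiv.apply_symm_apply]
          rw [e1]
          exact (hV1 _).2 ((presVT_symm hV2 u).2 hu)
      obtain ⟨a, b, ha, hb, e1⟩ := H_Fx_form hρ hτ hxH (G1_le_Fx hφ2 hρ hτ hφ x.2)
      have key : ∀ t, θ (xG hφ t) = xG hφ (σ t) ∧ θ' (xG hφ t) = xG hφ (σ' t) := fun t =>
        ⟨Subtype.ext ((h1 _).trans (fg_Pw σ hφ t)), Subtype.ext ((h2 _).trans (fg_Pw σ' hφ t))⟩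
      have hκ : ∀ t, σ t = a ^ 2 * (b⁻¹ * σ' t) := by
        intro t
        have e2 := hx (xG hφ t)
        rw [(key t).1, (key t).2] at e2
        have e3 : x * xG hφ (σ' t) * x⁻¹ = xG hφ (a ^ 2 * (b⁻¹ * σ' t)) := by
          apply Subtype.ext
          show (x : GL chevF4.Idx K) * Y1 φ (σ' t) * (x : GL chevF4.Idx K)⁻¹ = Y1 φ _
          rw [e1, Y1_pair ha hb]
        rw [e3] at e2
        exact xG_inj hφ e2
      have h1' := hκ 1
      simp only [map_one, mul_one] at h1'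
      apply RingEquiv.ext
      intro t
      rw [hκ t, ← mul_assoc, ← h1', one_mul])
    (fun {θ θ' c c' σ} h1 h2 _ => ⟨1, fun y => by
      simp only [one_mul, inv_one, mul_one]
      exact Subtype.ext ((h1 y).trans (h2 y).symm)⟩)
  rw [h]
  have h2 : Nat.card (Unit ⧸ (⊤ : Subgroup Unit)) = 1 := by
    rw [Nat.card_eq_one_iff_unique]
    exact ⟨inferInstance, inferInstance⟩
  rw [h2, one_mul]

end count

end Cfsg.Agent.Lib.TF4.I2
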