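import Cfsg.Agent.Lib.TF4.I2Cent

/-!
# Two generators for `²F₄(q)`

The element `a = n₁ n₀` rotates the root classes; `b` is the product of `Y8 1 0` and of an element of the torus centralizing
the last class and acting on the class `Y6` with an invertible exponent.
-/

set_option autoImplicit false
set_option linter.unusedSectionVars false
set_option linter.unusedVariables false
set_option linter.unusedSimpArgs false
set_option maxRecDepth 100000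

namespace Cfsg.Agent.Lib.TF4.I2

open Cfsg.Lie Cfsg.Agent.Lib.Twisted
open Cfsg.Agent.Lib.Chevalley.Tbl.F4 (sys comm)
open Cfsg.Agent.Lib.ChevBN.Elem Cfsg.Agent.Lib.ChevBN.Table Cfsg.Agent.Lib.ChevBN.Rel
open Cfsg.Agent.Lib.ChevBN.Opp Cfsg.Agent.Lib.ChevBN.Pair Cfsg.Agent.Lib.ChevBN.Torus
open Cfsg.Agent.Lib.ChevBN.FastData (tbl_chevF4)

variable {K : Type*} [Field K] [CharP K 2]

set_option quotPrecheck false in
/-- The root elements. -/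
local notation "Xr" => X (sys (F := _)).toAddRel

set_option quotPrecheck false in
/-- The torus elements. -/
local notation "hGr" => hG (sys (F := _)).toAddRel

/-- The torus element centralizing the last class. -/
noncomputable def hb (φ : K →+* K) (β : K) : GL chevF4.Idx K := hh φ 0 (β ^ 2 * ((φ β) ^ 2)⁻¹) * hh φ 1 β

/-- The exponents of a character. -/
theorem chi_form {b f : K} (hb : b ≠ 0) (hf : f ≠ 0) (c0 c1 c2 c3 : ℤ) :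
    (f ^ 2 * b⁻¹) ^ c0 * (b ^ 2 * (f ^ 2)⁻¹) ^ c3 * (f ^ c1 * b ^ c2) = b ^ (-c0 + 2 * c3 + c2) * f ^ (2 * c0 - 2 * c3 + c1) := by
  have sq' : ∀ (x : K) (c : ℤ), (x ^ 2) ^ c = x ^ (2 * c) := fun x c => by rw [zpow_mul, zpow_ofNat]
  have h1 : (f ^ 2 * b⁻¹) ^ c0 = f ^ (2 * c0) * b ^ (-c0) := by
    rw [mul_zpow, sq', inv_zpow, ← zpow_neg]
  have h2 : (b ^ 2 * (f ^ 2)⁻¹) ^ c3 = b ^ (2 * c3) * f ^ (-(2 * c3)) := by
    rw [mul_zpow, sq', inv_zpow, sq', ← zpow_neg]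
  rw [h1, h2, zpow_add₀ hb, zpow_add₀ hb, sub_eq_add_neg, zpow_add₀ hf, zpow_add₀ hf]
  ring

section
variable {φ : K →+* K} (hφ2 : ∀ t, (φ (φ t)) ^ 2 = t) [Finite K]

include hφ2

omit [Finite K] in
theorem hb_alpha (β : K) : φ (β ^ 2 * ((φ β) ^ 2)⁻¹) = (φ β) ^ 2 * β⁻¹ := by
  rw [map_mul, map_pow, map_inv₀, map_pow, hφ2]

/-- The action of the torus element. -/
theorem hb_val {β : K} (hβ : β ≠ 0) {s : ℕ} (hs : s < chevF4.nroots) {E1 E2 : ℤ}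
    (h1 : -chevF4.cartan 0 s + 2 * chevF4.cartan 3 s + chevF4.cartan 2 s = E1)
    (h2 : 2 * chevF4.cartan 0 s - 2 * chevF4.cartan 3 s + chevF4.cartan 1 s = E2) (t : K) :
    hb φ β * Xr s t * (hb φ β)⁻¹ = Xr s (β ^ E1 * (φ β) ^ E2 * t) := by
  have hf : φ β ≠ 0 := φ_ne hβ
  have hα : β ^ 2 * ((φ β) ^ 2)⁻¹ ≠ 0 := mul_ne_zero (pow_ne_zero _ hβ) (inv_ne_zero (pow_ne_zero _ hf))
  have e : hb φ β * Xr s t * (hb φ β)⁻¹ = hh φ 0 (β ^ 2 * ((φ β) ^ 2)⁻¹) * (hh φ 1 β * Xr s t * (hh φ 1 β)⁻¹) * (hh φ 0 (β ^ 2 * ((φ β) ^ 2)⁻¹))⁻¹ := by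
    unfold hb
    group
  rw [e, hh1_conj hβ hs t, hh0_conj' hα hs, hb_alpha hφ2, ← h1, ← h2, ← chi_form hβ hf]
  congr 1
  ring

theorem hb_Y8 {β : K} (hβ : β ≠ 0) (t w : K) : hb φ β * Y8 φ t w * (hb φ β)⁻¹ = Y8 φ t w := by
  show hb φ β * E2 φ 27 25 28 30 t w * (hb φ β)⁻¹ = E2 φ 27 25 28 30 t w
  unfold E2
  rw [conj_mul, conj_mul, conj_mul, hb_val hφ2 hβ (s := 27) (E1 := 0) (E2 := 0) (by decide +kernel) (by decide +kernel) (by decide +kernel),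
    hb_val hφ2 hβ (s := 25) (E1 := 0) (E2 := 0) (by decide +kernel) (by decide +kernel) (by decide +kernel),
    hb_val hφ2 hβ (s := 28) (E1 := 0) (E2 := 0) (by decide +kernel) (by decide +kernel) (by decide +kernel),
    hb_val hφ2 hβ (s := 30) (E1 := 0) (E2 := 0) (by decide +kernel) (by decide +kernel) (by decide +kernel)]
  simp

theorem hb_Y6 {t : K} (ht : t ≠ 0) (hγ : t ^ 3 * (φ t) ^ 4 ≠ 0) : hb φ (t ^ 3 * (φ t) ^ 4) * Y6 φ 1 0 * (hb φ (t ^ 3 * (φ t) ^ 4))⁻¹ = Y6 φ t 0 := by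
  have hf : φ t ≠ 0 := φ_ne ht
  have hφγ : φ (t ^ 3 * (φ t) ^ 4) = (φ t) ^ 3 * t ^ 2 := by
    rw [map_mul, map_pow, map_pow, show (φ (φ t)) ^ 4 = ((φ (φ t)) ^ 2) ^ 2 by ring, hφ2]
  show hb φ (t ^ 3 * (φ t) ^ 4) * E2 φ 35 31 40 46 1 0 * (hb φ (t ^ 3 * (φ t) ^ 4))⁻¹ = E2 φ 35 31 40 46 t 0
  unfold E2
  rw [conj_mul, conj_mul, conj_mul, hb_val hφ2 hγ (s := 35) (E1 := -2) (E2 := 3) (by decide +kernel) (by decide +kernel) (by decide +kernel),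
    hb_val hφ2 hγ (s := 31) (E1 := 3) (E2 := -4) (by decide +kernel) (by decide +kernel) (by decide +kernel),
    hb_val hφ2 hγ (s := 40) (E1 := 1) (E2 := -1) (by decide +kernel) (by decide +kernel) (by decide +kernel),
    hb_val hφ2 hγ (s := 46) (E1 := -1) (E2 := 2) (by decide +kernel) (by decide +kernel) (by decide +kernel), hφγ]
  have e1 : (t ^ 3 * φ t ^ 4) ^ (-2 : ℤ) * (φ t ^ 3 * t ^ 2) ^ (3 : ℤ) * φ 1 = φ t := by
    rw [map_one, mul_one, zpow_neg, zpow_ofNat, show ((3 : ℤ)) = ((3 : ℕ) : ℤ) from rfl, zpow_natCast]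
    field_simp
  have e2 : (t ^ 3 * φ t ^ 4) ^ (3 : ℤ) * (φ t ^ 3 * t ^ 2) ^ (-4 : ℤ) * 1 = t := by
    rw [mul_one, zpow_neg, show ((4 : ℤ)) = ((4 : ℕ) : ℤ) from rfl, zpow_natCast, show ((3 : ℤ)) = ((3 : ℕ) : ℤ) from rfl, zpow_natCast]
    field_simp
  have e3 : (t ^ 3 * φ t ^ 4) ^ (1 : ℤ) * (φ t ^ 3 * t ^ 2) ^ (-1 : ℤ) * (1 * φ 1 + φ 0) = t * φ t + φ 0 := by
    rw [map_one, map_zero, add_zero, add_zero, mul_one, mul_one, zpow_one, zpow_neg_one]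
    field_simp
  rw [e1, e2, e3]
  simp

omit [Finite K] hφ2 in
theorem hb_one : hb φ (1 : K) = 1 := by
  simp [hb, hh, hG_one]

omit hφ2 [Finite K] in
theorem hb_mul_aux [Finite K] {a a' b b' : K} (ha : a ≠ 0) (ha' : a' ≠ 0) (hb' : b ≠ 0) (hb'' : b' ≠ 0) :
    (hh φ 0 a * hh φ 1 b) * (hh φ 0 a' * hh φ 1 b') = hh φ 0 (a * a') * hh φ 1 (b * b') := by
  have c := H_comm' (hh_H (φ := φ) 1 hb') (hh_H (φ := φ) 0 ha')
  calc (hh φ 0 a * hh φ 1 b) * (hh φ 0 a' * hh φ 1 b') = hh φ 0 a * (hh φ 1 b * hh φ 0 a') * hh φ 1 b' := by group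
    _ = hh φ 0 a * (hh φ 0 a' * hh φ 1 b) * hh φ 1 b' := by rw [c]
    _ = (hh φ 0 a * hh φ 0 a') * (hh φ 1 b * hh φ 1 b') := by group
    _ = _ := by rw [hh_mul 0 ha ha', hh_mul 1 hb' hb'']

theorem hb_mul {β γ : K} (h1 : β ≠ 0) (h2 : γ ≠ 0) : hb φ β * hb φ γ = hb φ (β * γ) := by
  have f1 : φ β ≠ 0 := φ_ne h1
  have f2 : φ γ ≠ 0 := φ_ne h2
  unfold hb
  rw [hb_mul_aux (mul_ne_zero (pow_ne_zero _ h1) (inv_ne_zero (pow_ne_zero _ f1)))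
    (mul_ne_zero (pow_ne_zero _ h2) (inv_ne_zero (pow_ne_zero _ f2))) h1 h2]
  congr 2
  rw [map_mul]
  field_simp

theorem hb_pow {β : K} (h1 : β ≠ 0) (k : ℕ) : (hb φ β) ^ k = hb φ (β ^ k) := by
  induction k with
  | zero => simp [hb_one]
  | succ k ih => rw [pow_succ, ih, hb_mul hφ2 (pow_ne_zero _ h1) h1, pow_succ]

omit [Finite K] in
theorem Y8_sq (t : K) : Y8 φ t 0 * Y8 φ t 0 = Y8 φ 0 (t * (φ t) ^ 2) := by
  have h2 : t + t = 0 := CharTwo.add_self_eq_zero t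
  rw [Y8_eq hφ2, Y8_eq hφ2, Ew_mul hφ2, map_zero, map_mul, map_pow, hφ2, h2]
  congr 1
  ring

omit [Finite K] in
theorem Y8_split (t w : K) : Y8 φ t w = Y8 φ t 0 * Y8 φ 0 w := by
  rw [Y8_eq hφ2, Y8_eq hφ2, Y8_eq hφ2, map_zero, ← Ew_split hφ2]

theorem Y8_pow4 : (Y8 φ (1 : K) 0) ^ 4 = 1 := by
  have h1 : Y8 φ (1 : K) 0 * Y8 φ (1 : K) 0 = Y8 φ 0 1 := by
    rw [Y8_sq hφ2, map_one]
    simp
  have h2 : Y8 φ (0 : K) 1 * Y8 φ (0 : K) 1 = 1 := by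
    have h3 := z1_sq (K := K) (φ := φ) hφ2
    exact h3
  rw [show (Y8 φ (1 : K) 0) ^ 4 = (Y8 φ (1 : K) 0 * Y8 φ (1 : K) 0) * (Y8 φ (1 : K) 0 * Y8 φ (1 : K) 0) by
    simp only [pow_succ, pow_zero, one_mul, mul_assoc], h1, h2]

end

section
variable {φ : K →+* K} (hφ2 : ∀ t, (φ (φ t)) ^ 2 = t) {T : Tw (sys (F := K)).toAddRel} (hρ : T.ρ = ρ0)
  (hτ : ∀ r t, T.τ r t = lam r (φ t)) {e : ℕ} (hφ : ∀ t, φ t = t ^ e) [Finite K]

include hφ2 hρ hτ hφ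

/-- The commutator of the classes `Y2` and `Y4`. -/
theorem comm_24 (t s : K) : Y2 φ t 0 * Y4 φ s 0 = Y3 φ (t * s) * Y4 φ s 0 * Y2 φ t 0 := by
  apply Sec_inj hφ2 hρ hτ hφ (mul_U1 hφ2 hρ hτ hφ (Y2_U1 hφ2 hρ hτ hφ _ _) (Y4_U1 hφ2 hρ hτ hφ _ _))
    (mul_U1 hφ2 hρ hτ hφ (mul_U1 hφ2 hρ hτ hφ (Y3_U1 hφ2 hρ hτ hφ _) (Y4_U1 hφ2 hρ hτ hφ _ _)) (Y2_U1 hφ2 hρ hτ hφ _ _))
  set v := vv φ [t, s] with hv
  have a2 := E2_word φ v 34 26 36 42 t 0 (ps := [[1]]) (pt := [[0]]) (pc := [[0, 1]]) (pw := []) (evP1 v 1) (evP1 v 0)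
    (by simp [evP, evM, hv, vv, map_zero]) (by simp [evP])
  have a4 := E2_word φ v 29 41 44 47 s 0 (ps := [[3]]) (pt := [[2]]) (pc := [[2, 3]]) (pw := []) (evP1 v 3) (evP1 v 2)
    (by simp [evP, evM, hv, vv, map_zero]) (by simp [evP])
  have a3 := P2_word φ v 38 43 (t * s) (ps := [[1, 3]]) (pt := [[0, 2]])
    (by simp [evP, evM, hv, vv, map_mul]) (by simp [evP, evM, hv, vv])
  rw [Y2, Y3, Y4, a2, a3, a4, ← wordG_append, ← wordG_append, ← wordG_append, Sec_word v (by decide +kernel), Sec_word v (by decide +kernel),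
    (by decide +kernel : wordP ([(34, [[1]]), (26, [[0]]), (36, [[0, 1]]), (42, [])] ++ [(29, [[3]]), (41, [[2]]), (44, [[2, 3]]), (47, [])]) =
      wordP ([(38, [[1, 3]]), (43, [[0, 2]])] ++ [(29, [[3]]), (41, [[2]]), (44, [[2, 3]]), (47, [])] ++ [(34, [[1]]), (26, [[0]]), (36, [[0, 1]]), (42, [])]))]

/-- Everything lies in a subgroup containing the two elements. -/
theorem gens_in (hq : Even (Nat.card K)) {Q : Subgroup (GL chevF4.Idx K)} (hrot : rotD ∈ Q) {β : K} (hβ0 : β ≠ 0)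
    (hgen : ∀ x : K, x ≠ 0 → ∃ k : ℕ, x = β ^ k) (hb0 : Y8 φ 1 0 * hb φ β ∈ Q) : twistedF4 K e ≤ Q := by
  classical
  have : Fintype K := Fintype.ofFinite K
  have hconj : ∀ {g x : GL chevF4.Idx K}, g ∈ Q → x ∈ Q → g * x * g⁻¹ ∈ Q := fun hg hx =>
    Q.mul_mem (Q.mul_mem hg hx) (Q.inv_mem hg)
  -- the two factors
  have hcomm : Commute (Y8 φ (1 : K) 0) (hb φ β) := by
    have h := hb_Y8 hφ2 hβ0 (1 : K) 0
    exact (mul_inv_eq_iff_eq_mul.1 h).symm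
  set r := Nat.card K - 1 with hr
  have hcard : Nat.card K = Fintype.card K := Nat.card_eq_fintype_card
  have hodd : Odd r := by
    have h1 : 1 ≤ Nat.card K := Nat.card_pos
    exact Nat.Even.sub_odd h1 hq odd_one
  have hy : (hb φ β) ^ r = 1 := by
    rw [hb_pow hφ2 hβ0, hr, hcard, FiniteField.pow_card_sub_one_eq_one β hβ0, hb_one]
  obtain ⟨j, hj⟩ := hodd
  have hN : (Y8 φ (1 : K) 0 * hb φ β) ^ (r * r) = Y8 φ 1 0 := by
    rw [hcomm.mul_pow, pow_mul (hb φ β), hy, one_pow, mul_one]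
    have e1 : r * r = 4 * (j * j + j) + 1 := by
      rw [hj]
      ring
    rw [e1, pow_succ, pow_mul, Y8_pow4 hφ2, one_pow, one_mul]
  have hY : Y8 φ (1 : K) 0 ∈ Q := by
    rw [← hN]
    exact Q.pow_mem hb0 _
  have hh' : hb φ β ∈ Q := by
    have e1 : hb φ β = (Y8 φ (1 : K) 0)⁻¹ * (Y8 φ 1 0 * hb φ β) := by group
    rw [e1]
    exact Q.mul_mem (Q.inv_mem hY) hb0
  -- rotations
  have hrotm : ∀ {x y : GL chevF4.Idx K}, rotD * x * rotD⁻¹ = y → (x ∈ Q ↔ y ∈ Q) := by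
    intro x y h
    constructor
    · intro hx
      rw [← h]
      exact hconj hrot hx
    · intro hy
      have e1 : x = rotD⁻¹ * y * (rotD⁻¹)⁻¹ := by
        rw [← h]
        group
      rw [e1]
      exact hconj (Q.inv_mem hrot) hy
  have hY6 : Y6 φ (1 : K) 0 ∈ Q := (hrotm (rot8 φ 1 0)).1 hY
  -- the class Y6
  have h6 : ∀ t : K, Y6 φ t 0 ∈ Q := by
    intro t
    by_cases ht : t = 0
    · subst ht
      rw [Y6_zero]
      exact Q.one_mem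
    have hγ : t ^ 3 * (φ t) ^ 4 ≠ 0 := mul_ne_zero (pow_ne_zero _ ht) (pow_ne_zero _ (φ_ne ht))
    obtain ⟨k, hk⟩ := hgen _ hγ
    have h1 : hb φ (t ^ 3 * (φ t) ^ 4) ∈ Q := by
      rw [hk, ← hb_pow hφ2 hβ0]
      exact Q.pow_mem hh' _
    rw [← hb_Y6 hφ2 ht hγ]
    exact hconj h1 hY6
  have h8 : ∀ t : K, Y8 φ t 0 ∈ Q := fun t => (hrotm (rot8 φ t 0)).2 (h6 t)
  have h8z : ∀ w : K, Y8 φ 0 w ∈ Q := by
    intro w
    by_cases hw : w = 0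
    · subst hw
      rw [Y8_zero]
      exact Q.one_mem
    have hf : φ w ≠ 0 := φ_ne hw
    have e1 : ((φ w) ^ 2 * w⁻¹) * (φ ((φ w) ^ 2 * w⁻¹)) ^ 2 = w := by
      rw [map_mul, map_pow, map_inv₀, hφ2]
      field_simp
    rw [← e1, ← Y8_sq hφ2]
    exact Q.mul_mem (h8 _) (h8 _)
  have h8f : ∀ t w : K, Y8 φ t w ∈ Q := fun t w => by
    rw [Y8_split hφ2]
    exact Q.mul_mem (h8 t) (h8z w)
  have h6f : ∀ t w : K, Y6 φ t w ∈ Q := fun t w => (hrotm (rot8 φ t w)).1 (h8f t w)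
  have h4f : ∀ t w : K, Y4 φ t w ∈ Q := fun t w => (hrotm (rot6 φ t w)).1 (h6f t w)
  have h2f : ∀ t w : K, Y2 φ t w ∈ Q := fun t w => (hrotm (rot4 φ t w)).1 (h4f t w)
  have h3f : ∀ t : K, Y3 φ t ∈ Q := by
    intro t
    have h1 := comm_24 hφ2 hρ hτ hφ t 1
    rw [mul_one] at h1
    have e1 : Y3 φ t = Y2 φ t 0 * Y4 φ 1 0 * (Y4 φ 1 0 * Y2 φ t 0)⁻¹ := by
      rw [h1, _root_.mul_inv_rev]
      group
    rw [e1]
    exact Q.mul_mem (Q.mul_mem (h2f _ _) (h4f _ _)) (Q.inv_mem (Q.mul_mem (h4f _ _) (h2f _ _)))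
  have h1f : ∀ t : K, Y1 φ t ∈ Q := fun t => (hrotm (rot3 φ t)).1 (h3f t)
  -- the elements with negative roots
  have hL : ∀ i ∈ lw 1 ++ lw 0 ++ (lw 1 ++ lw 0) ++ (lw 1 ++ lw 0 ++ (lw 1 ++ lw 0)), i < chevF4.rank := by decide +kernel
  have hrot4 : prodA (sys (F := K)) (lw 1 ++ lw 0 ++ (lw 1 ++ lw 0) ++ (lw 1 ++ lw 0 ++ (lw 1 ++ lw 0))) ∈ Q := by
    rw [prodA_append (lw 1 ++ lw 0 ++ (lw 1 ++ lw 0)) (lw 1 ++ lw 0 ++ (lw 1 ++ lw 0)), prodA_append (lw 1 ++ lw 0) (lw 1 ++ lw 0)]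
    exact Q.mul_mem (Q.mul_mem hrot hrot) (Q.mul_mem hrot hrot)
  have hneg1 : ∀ t : K, N0 * Pw φ t * N0⁻¹ ∈ Q := by
    intro t
    have h1 : N0 * Pw φ t * N0⁻¹ = Xr 14 (φ t) * Xr 23 t := N0_Pc _ _
    have h2 := P2_conj' φ hL (a := 33) (b := 24) (a' := 14) (b' := 23) (by decide +kernel) (by decide +kernel)
      (by decide +kernel) (by decide +kernel) t
    rw [h1]
    have h3 : P2 φ 14 23 t = Xr 14 (φ t) * Xr 23 t := rfl
    rw [← h3, ← h2]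
    exact hconj hrot4 (h1f t)
  have hneg2 : ∀ t u : K, N0 * Ew φ t u * N0⁻¹ ∈ Q := by
    intro t u
    have h1 : N0 * Ew φ t u * N0⁻¹ = Xr 20 (φ t) * Xr 22 t * Xr 19 (φ t * t + u) * Xr 17 ((φ u) ^ 2) := N0_Ec _ _ _ _
    have h2 := E2_conj' φ hL (a := 27) (b := 25) (c := 28) (d := 30) (a' := 20) (b' := 22) (c' := 19) (d' := 17)
      (by decide +kernel) (by decide +kernel) (by decide +kernel) (by decide +kernel)
      (by decide +kernel) (by decide +kernel) (by decide +kernel) (by decide +kernel) t ((φ u) ^ 2)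
    rw [h1]
    have h3 : E2 φ 20 22 19 17 t ((φ u) ^ 2) = Xr 20 (φ t) * Xr 22 t * Xr 19 (φ t * t + u) * Xr 17 ((φ u) ^ 2) := by
      unfold E2
      rw [map_pow, hφ2, mul_comm t]
    rw [← h3, ← h2]
    exact hconj hrot4 (h8f t _)
  have hEw : ∀ t u : K, Ew φ t u ∈ Q := by
    intro t u
    have h3 := Y8_eq hφ2 t ((φ u) ^ 2)
    rw [map_pow, hφ2] at h3
    rw [← h3]
    exact h8f _ _
  refine (Subgroup.closure_le _).2 ?_
  intro g hg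
  rcases gen_cases hφ hg with ⟨t, rfl⟩ | ⟨t, u, rfl⟩ | ⟨t, rfl⟩ | ⟨t, u, rfl⟩
  · exact h1f t
  · exact hEw t u
  · exact hneg1 t
  · exact hneg2 t u

/-- Two generators. -/
theorem two_gen (hq : Even (Nat.card K)) : ∃ a b : ↥(twistedF4 K e), Subgroup.closure ({a, b} : Set ↥(twistedF4 K e)) = ⊤ := by
  classical
  have : Fintype K := Fintype.ofFinite K
  obtain ⟨g, hg⟩ := IsCyclic.exists_generator (α := Kˣ)
  have hβ0 : (g : K) ≠ 0 := g.ne_zero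
  have hgen : ∀ x : K, x ≠ 0 → ∃ k : ℕ, x = (g : K) ^ k := by
    intro x hx
    have h1 : Units.mk0 x hx ∈ Subgroup.zpowers g := hg _
    have h2 := (mem_powers_iff_mem_zpowers).2 h1
    obtain ⟨k, hk⟩ := h2
    refine ⟨k, ?_⟩
    have h3 := congrArg Units.val hk
    simpa using h3.symm
  have hrm := rotD_mem (K := K) (φ := φ) hφ2 hρ hτ hφ
  have hhb : hb φ (g : K) ∈ twistedF4 K e :=
    Subgroup.mul_mem _ (hh_mem hφ2 hρ hτ hφ 0 (mul_ne_zero (pow_ne_zero _ hβ0) (inv_ne_zero (pow_ne_zero _ (φ_ne hβ0)))))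
      (hh_mem hφ2 hρ hτ hφ 1 hβ0)
  refine ⟨⟨rotD, hrm⟩, ⟨Y8 φ 1 0 * hb φ (g : K), Subgroup.mul_mem _ (Y8_mem hφ2 hρ hτ hφ _ _) hhb⟩, ?_⟩
  rw [eq_top_iff]
  rintro x -
  set a : ↥(twistedF4 K e) := ⟨rotD, hrm⟩ with ha
  set b : ↥(twistedF4 K e) := ⟨Y8 φ 1 0 * hb φ (g : K), Subgroup.mul_mem _ (Y8_mem hφ2 hρ hτ hφ _ _) hhb⟩ with hbd
  have hle := gens_in hφ2 hρ hτ hφ hq (Q := (Subgroup.closure ({a, b} : Set ↥(twistedF4 K e))).map (twistedF4 K e).subtype)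
    (β := (g : K)) ⟨a, Subgroup.subset_closure (by simp), rfl⟩ hβ0 hgen ⟨b, Subgroup.subset_closure (by simp), rfl⟩
  obtain ⟨y, hy, e1⟩ := hle x.2
  have e2 : y = x := Subtype.ext e1
  rwa [← e2]

end

end Cfsg.Agent.Lib.TF4.I2
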