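import Cfsg.Agent.Lib.TF4.I2Cent

/-!
# The centralizers of the involutions of `²F₄(q)` lie in the minimal parabolic subgroups
-/

set_option autoImplicit false
set_option linter.unusedSectionVars false
set_option linter.unusedVariables false
set_option linter.unusedSimpArgs false
set_option maxRecDepth 100000

namespace Cfsg.Agent.Lib.TF4.I2

open Cfsg DoubleCoset
open Cfsg.Lie Cfsg.Agent.Lib.Twisted
open Cfsg.Agent.Lib.Chevalley.Tbl.F4 (sys comm)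
open Cfsg.Agent.Lib.ChevBN.Elem Cfsg.Agent.Lib.ChevBN.Table Cfsg.Agent.Lib.ChevBN.Rel
open Cfsg.Agent.Lib.ChevBN.Opp Cfsg.Agent.Lib.ChevBN.Pair Cfsg.Agent.Lib.ChevBN.Torus Cfsg.Agent.Lib.ChevBN.Stmts
open Cfsg.Agent.Lib.ChevOrder.BNCount Cfsg.Agent.Lib.BNPair.Basic Cfsg.Agent.Lib.BNPair.Parabolic
open Cfsg.Agent.Lib.ChevBN.FastData (tbl_chevF4)

variable {K : Type*} [Field K] [CharP K 2]

section
variable {φ : K →+* K} (hφ2 : ∀ t, (φ (φ t)) ^ 2 = t) {T : Tw (sys (F := K)).toAddRel} (hρ : T.ρ = ρ0)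
  (hτ : ∀ r t, T.τ r t = lam r (φ t)) {e : ℕ} (hφ : ∀ t, φ t = t ^ e) [Finite K]
  {P : Cfsg.BNPair ↥(twistedF4 K e)}
  (hB : P.B = (chevF4.borelSubgroup K ⊓ twistedF4 K e).subgroupOf (twistedF4 K e))
  (hN : P.N = (chevF4.monomialSubgroup K ⊓ twistedF4 K e).subgroupOf (twistedF4 K e))
  (hS : P.S = {g : ↥(twistedF4 K e) | (g : GL chevF4.Idx K) ∈ Set.range (nw (K := K))})

include hφ2 hρ hτ hφ hB hN hS

/-- The Bruhat decomposition with explicit representatives. -/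
theorem bruhat_word (g : ↥(twistedF4 K e)) : ∃ l ∈ wordsW, ∃ b₁ ∈ P.B, ∃ b₂ ∈ P.B, g = b₁ * ⟨nl l, pw_mem (nw_mem hφ2 hρ hτ hφ) l⟩ * b₂ := by
  classical
  have hnw := nw_mem (K := K) hφ2 hρ hτ hφ
  obtain ⟨n, hn, hgn⟩ := bruhat_exists (P := P) g
  obtain ⟨l, hl, hpr⟩ := exists_word hnw hB hN hS (QuotientGroup.mk ⟨n, hn⟩ : Cfsg.Agent.Lib.ChevOrder.BNCount.WW P)
  rw [pr_eq_mk hnw hN hS] at hpr
  have h1 := (mk_eq _ _).1 hpr
  have h2 : C P n = C P ((nP hnw hN l : P.N) : ↥(twistedF4 K e)) := (C_eq_of_inv_mul_mem h1).symm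
  rw [h2] at hgn
  obtain ⟨b, hb, b', hb', rfl⟩ := mem_C.1 hgn
  exact ⟨l, hl, b, hb, b', hb', rfl⟩

/-- A subgroup fixing a family of elements lies in a parabolic subgroup. -/
theorem par_of_fam (j : Fin 2) (Fam : Set (GL chevF4.Idx K))
    (hfam : ∀ b ∈ chevF4.borelSubgroup K ⊓ twistedF4 K e, ∀ x ∈ Fam, b * x * b⁻¹ ∈ Fam)
    (hno : ∀ l ∈ wordsW, l ≠ [] → l ≠ [j] → ∀ x₁ ∈ Fam, ∀ x₂ ∈ Fam, nl l * x₁ * (nl l)⁻¹ = x₂ → False)
    {g : ↥(twistedF4 K e)} {x : GL chevF4.Idx K} (hx : x ∈ Fam) (hg : (g : GL chevF4.Idx K) * x * (g : GL chevF4.Idx K)⁻¹ = x) :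
    g ∈ P.parabolic {eP (nw_mem hφ2 hρ hτ hφ) j} := by
  have hnw := nw_mem (K := K) hφ2 hρ hτ hφ
  obtain ⟨l, hl, b₁, hb₁, b₂, hb₂, rfl⟩ := bruhat_word hφ2 hρ hτ hφ hB hN hS g
  have hb₁' := (memPB hB _).1 hb₁
  have hb₂' := (memPB hB _).1 hb₂
  have mb₁ : (b₁ : GL chevF4.Idx K) ∈ chevF4.borelSubgroup K ⊓ twistedF4 K e := ⟨hb₁', b₁.2⟩
  have mb₂ : (b₂ : GL chevF4.Idx K) ∈ chevF4.borelSubgroup K ⊓ twistedF4 K e := ⟨hb₂', b₂.2⟩
  rw [mem_parabolic_singleton (eP_mem hnw hS j)]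
  by_cases h0 : l = []
  · subst h0
    left
    have e1 : b₁ * ⟨nl [], pw_mem hnw []⟩ * b₂ = b₁ * b₂ := by
      apply Subtype.ext
      show (b₁ : GL chevF4.Idx K) * prodA sys [] * (b₂ : GL chevF4.Idx K) = (b₁ : GL chevF4.Idx K) * (b₂ : GL chevF4.Idx K)
      simp [prodA]
    rw [e1]
    exact P.B.mul_mem hb₁ hb₂
  by_cases h1 : l = [j]
  · subst h1
    right
    refine mem_C.2 ⟨b₁, hb₁, b₂, hb₂, ?_⟩
    congr 2
    apply Subtype.ext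
    show prodA sys (([j] : List (Fin 2)).map lw).flatten = nw j
    simp [nw]
  exfalso
  refine hno l hl h0 h1 _ (hfam _ mb₂ x hx) _ (hfam _ (Subgroup.inv_mem _ mb₁) x hx) ?_
  have e2 : ((b₁ * ⟨nl l, pw_mem hnw l⟩ * b₂ : ↥(twistedF4 K e)) : GL chevF4.Idx K) = (b₁ : GL chevF4.Idx K) * nl l * (b₂ : GL chevF4.Idx K) := rfl
  rw [e2] at hg
  rw [inv_inv]
  calc nl l * ((b₂ : GL chevF4.Idx K) * x * (b₂ : GL chevF4.Idx K)⁻¹) * (nl l)⁻¹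
      = (b₁ : GL chevF4.Idx K)⁻¹ * (((b₁ : GL chevF4.Idx K) * nl l * (b₂ : GL chevF4.Idx K)) * x * ((b₁ : GL chevF4.Idx K) * nl l * (b₂ : GL chevF4.Idx K))⁻¹) * (b₁ : GL chevF4.Idx K) := by group
    _ = (b₁ : GL chevF4.Idx K)⁻¹ * x * (b₁ : GL chevF4.Idx K) := by rw [hg]

/-- The second class. -/
theorem par5 {g : ↥(twistedF4 K e)} {u a w : K} (ha : a ≠ 0)
    (hg : (g : GL chevF4.Idx K) * Xf φ u a w * (g : GL chevF4.Idx K)⁻¹ = Xf φ u a w) :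
    g ∈ P.parabolic {eP (nw_mem hφ2 hρ hτ hφ) 0} := by
  refine par_of_fam hφ2 hρ hτ hφ hB hN hS 0 {x | ∃ u a w, a ≠ 0 ∧ x = Xf φ u a w} ?_ ?_ ⟨u, a, w, ha, rfl⟩ hg
  · rintro b hb _ ⟨u', a', w', ha', rfl⟩
    obtain ⟨u'', a'', w'', h1, h2⟩ := fam5 hφ2 hρ hτ hφ hb ha'
    exact ⟨u'', a'', w'', h1, h2⟩
  · rintro l hl h0 h1 _ ⟨u', a', w', ha', rfl⟩ _ ⟨u'', a'', w'', ha'', rfl⟩ hx
    exact no5 hl h0 h1 hx ha' ha''

/-- The first class. -/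
theorem par4 {g : ↥(twistedF4 K e)} {u : K} (hu : u ≠ 0)
    (hg : (g : GL chevF4.Idx K) * Xf φ u 0 0 * (g : GL chevF4.Idx K)⁻¹ = Xf φ u 0 0) :
    g ∈ P.parabolic {eP (nw_mem hφ2 hρ hτ hφ) 1} := by
  refine par_of_fam hφ2 hρ hτ hφ hB hN hS 1 {x | ∃ u, u ≠ 0 ∧ x = Xf φ u 0 0} ?_ ?_ ⟨u, hu, rfl⟩ hg
  · rintro b hb _ ⟨u', hu', rfl⟩
    obtain ⟨u'', h1, h2⟩ := fam4 hφ2 hρ hτ hφ hb hu'
    exact ⟨u'', h1, h2⟩
  · rintro l hl h0 h1 _ ⟨u', hu', rfl⟩ _ ⟨u'', hu'', rfl⟩ hx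
    exact no4 hl h0 h1 hx hu''

omit hN in
/-- The order of a minimal parabolic subgroup. -/
theorem card_par (j : Fin 2) : Nat.card (P.parabolic {eP (nw_mem hφ2 hρ hτ hφ) j}) =
    (1 + QQ (Nat.card K) j) * (Nat.card K ^ 12 * (Nat.card K - 1) ^ 2) := by
  classical
  have hnw := nw_mem (K := K) hφ2 hρ hτ hφ
  have hs := eP_mem hnw hS j
  set s := eP hnw j with hsd
  have hset : (P.parabolic {s} : Set ↥(twistedF4 K e)) = (P.B : Set ↥(twistedF4 K e)) ∪ C P s := by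
    ext g
    rw [SetLike.mem_coe, mem_parabolic_singleton hs]
    rfl
  have hdisj : Disjoint (P.B : Set ↥(twistedF4 K e)) (C P s) := by
    rw [Set.disjoint_left]
    intro g hg hg2
    obtain ⟨b, hb, b', hb', rfl⟩ := mem_C.1 hg2
    apply s_not_mem_B hs
    have e1 : s = b⁻¹ * (b * s * b') * b'⁻¹ := by group
    rw [e1]
    exact P.B.mul_mem (P.B.mul_mem (P.B.inv_mem hb) hg) (P.B.inv_mem hb')
  have h1 : Nat.card (P.parabolic {s}) = Nat.card (P.B) + Nat.card (C P s) := by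
    have e1 : Nat.card (P.parabolic {s}) = ((P.parabolic {s} : Set ↥(twistedF4 K e))).ncard := (Nat.card_coe_set_eq _).symm
    rw [e1, hset, Set.ncard_union_eq hdisj (Set.toFinite _) (Set.toFinite _)]
    rw [← Nat.card_coe_set_eq, ← Nat.card_coe_set_eq]
    rfl
  have h3 : Nat.card P.B = Nat.card K ^ 12 * (Nat.card K - 1) ^ 2 := by
    rw [← card_B1' hφ2 hρ hτ hφ, hB]
    exact Nat.card_congr (Subgroup.subgroupOfEquivOfLe inf_le_right).toEquiv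
  rw [h1, card_C_nw hφ2 hρ hτ hφ hB hS j, h3]
  ring

/-- The prime divisors of the elements centralizing an involution. -/
theorem prime_dvd {a b : ↥(twistedF4 K e)} (hq : Even (Nat.card K)) (ha : orderOf a = 2) (hab : Commute a b) :
    ∃ j : Fin 2, orderOf b ∣ (1 + QQ (Nat.card K) j) * (Nat.card K ^ 12 * (Nat.card K - 1) ^ 2) := by
  have hrot := rotD_mem (K := K) (φ := φ) hφ2 hρ hτ hφ
  -- conjugation of the commutation
  have key : ∀ (c : ↥(twistedF4 K e)), orderOf (c * b * c⁻¹) = orderOf b := by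
    intro c
    exact (MulAut.conj c).orderOf_eq b
  have key2 : ∀ (c : ↥(twistedF4 K e)), (c * b * c⁻¹) * (c * a * c⁻¹) * (c * b * c⁻¹)⁻¹ = c * a * c⁻¹ := by
    intro c
    have e1 : (c * b * c⁻¹) * (c * a * c⁻¹) * (c * b * c⁻¹)⁻¹ = c * (b * a * b⁻¹) * c⁻¹ := by group
    rw [e1, hab.symm.eq]
    group
  have final : ∀ (j : Fin 2) (c : ↥(twistedF4 K e)), c * b * c⁻¹ ∈ P.parabolic {eP (nw_mem hφ2 hρ hτ hφ) j} →
      orderOf b ∣ (1 + QQ (Nat.card K) j) * (Nat.card K ^ 12 * (Nat.card K - 1) ^ 2) := by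
    intro j c hc
    rw [← key c, ← card_par hφ2 hρ hτ hφ hB hS j]
    exact Subgroup.orderOf_dvd_natCard _ hc
  rcases invol_cj hφ2 hρ hτ hφ hq a ha with ⟨g, hg, h⟩ | ⟨g, hg, h⟩
  · -- the first class
    refine ⟨1, final 1 (⟨rotD * rotD * g, Subgroup.mul_mem _ (Subgroup.mul_mem _ hrot hrot) hg⟩) ?_⟩
    set c : ↥(twistedF4 K e) := ⟨rotD * rotD * g, Subgroup.mul_mem _ (Subgroup.mul_mem _ hrot hrot) hg⟩ with hc
    have e1 : (c : GL chevF4.Idx K) * (a : GL chevF4.Idx K) * (c : GL chevF4.Idx K)⁻¹ = Xf φ 1 0 0 := by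
      have e2 : (c : GL chevF4.Idx K) * (a : GL chevF4.Idx K) * (c : GL chevF4.Idx K)⁻¹ = rotD * (rotD * (g * (a : GL chevF4.Idx K) * g⁻¹) * rotD⁻¹) * rotD⁻¹ := by
        show (rotD * rotD * g) * (a : GL chevF4.Idx K) * (rotD * rotD * g)⁻¹ = _
        group
      rw [e2, h, rot8, rot6, Y4z, Xf_z4]
    refine par4 hφ2 hρ hτ hφ hB hN hS (u := 1) one_ne_zero ?_
    rw [← e1]
    exact congrArg Subtype.val (key2 c)
  · -- the second class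
    refine ⟨0, final 0 (⟨rotD⁻¹ * rotD⁻¹ * g, Subgroup.mul_mem _ (Subgroup.mul_mem _ (Subgroup.inv_mem _ hrot) (Subgroup.inv_mem _ hrot)) hg⟩) ?_⟩
    set c : ↥(twistedF4 K e) := ⟨rotD⁻¹ * rotD⁻¹ * g, Subgroup.mul_mem _ (Subgroup.mul_mem _ (Subgroup.inv_mem _ hrot) (Subgroup.inv_mem _ hrot)) hg⟩ with hc
    have e1 : (c : GL chevF4.Idx K) * (a : GL chevF4.Idx K) * (c : GL chevF4.Idx K)⁻¹ = Xf φ 0 1 0 := by
      have e2 : (c : GL chevF4.Idx K) * (a : GL chevF4.Idx K) * (c : GL chevF4.Idx K)⁻¹ = rotD⁻¹ * (rotD⁻¹ * (g * (a : GL chevF4.Idx K) * g⁻¹) * rotD) * rotD := by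
        show (rotD⁻¹ * rotD⁻¹ * g) * (a : GL chevF4.Idx K) * (rotD⁻¹ * rotD⁻¹ * g)⁻¹ = _
        simp only [_root_.mul_inv_rev, inv_inv, mul_assoc]
      have e3 : (rotD : GL chevF4.Idx K)⁻¹ * Y1 φ 1 * rotD = Y3 φ 1 := by
        rw [← rot3]
        group
      have e4 : (rotD : GL chevF4.Idx K)⁻¹ * Y3 φ 1 * rotD = Y5 φ 1 := by
        rw [← rot5]
        group
      rw [e2, h, e3, e4]
      simp [Xf, P2_zero]
    refine par5 hφ2 hρ hτ hφ hB hN hS (u := 0) (a := 1) (w := 0) one_ne_zero ?_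
    rw [← e1]
    exact congrArg Subtype.val (key2 c)

end

/-- The arithmetic of the order. -/
theorem arith {n p q : ℕ} (hp : p.Prime) (hpn : p ∣ n) (hq2 : 2 ≤ q) {j : Fin 2}
    (h : n ∣ (1 + QQ q j) * (q ^ 12 * (q - 1) ^ 2)) : p ∈ (q * (q ^ 4 - 1)).primeFactors := by
  have h4 : q ^ 4 - 1 = (q - 1) * ((q + 1) * (q ^ 2 + 1)) := by
    obtain ⟨r, rfl⟩ : ∃ r, q = r + 1 := ⟨q - 1, by omega⟩
    have : (r + 1) ^ 4 = r * ((r + 1 + 1) * ((r + 1) ^ 2 + 1)) + 1 := by ring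
    rw [this]
    simp
  have hne : q * (q ^ 4 - 1) ≠ 0 := by
    have h1 : 1 < q ^ 4 := Nat.one_lt_pow (by norm_num) (by omega)
    have h2 : 0 < q := by omega
    have h3 : 0 < q ^ 4 - 1 := by omega
    exact (Nat.mul_pos h2 h3).ne'
  rw [Nat.mem_primeFactors]
  refine ⟨hp, ?_, hne⟩
  have h5 := hpn.trans h
  rw [h4]
  have h6 : p ∣ (1 + QQ q j) ∨ p ∣ q ∨ p ∣ (q - 1) := by
    rcases (Nat.Prime.dvd_mul hp).1 h5 with h7 | h7
    · exact Or.inl h7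
    · rcases (Nat.Prime.dvd_mul hp).1 h7 with h8 | h8
      · exact Or.inr (Or.inl (hp.dvd_of_dvd_pow h8))
      · exact Or.inr (Or.inr (hp.dvd_of_dvd_pow h8))
  rcases h6 with h7 | h7 | h7
  · match j, h7 with
    | 0, h7 =>
      have e1 : 1 + QQ q 0 = q + 1 := by
        show 1 + q = q + 1
        ring
      rw [e1] at h7
      exact (h7.trans (Dvd.intro _ rfl)).trans (Dvd.intro_left _ rfl) |>.trans (Dvd.intro_left _ rfl)
    | 1, h7 =>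
      have e1 : 1 + QQ q 1 = q ^ 2 + 1 := by
        show 1 + q ^ 2 = q ^ 2 + 1
        ring
      rw [e1] at h7
      exact (h7.trans (Dvd.intro_left _ rfl)).trans (Dvd.intro_left _ rfl) |>.trans (Dvd.intro_left _ rfl)
  · exact h7.trans (Dvd.intro _ rfl)
  · exact (h7.trans (Dvd.intro _ rfl)).trans (Dvd.intro_left _ rfl)

end Cfsg.Agent.Lib.TF4.I2
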